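import Cfsg.Agent.H2.KW
import Cfsg.Agent.H1.FC
import Cfsg.Agent.FT.B3a
import Cfsg.Agent.FT.Defs
import Cfsg.Prelude.Def_LieExceptional

/-! H2.CN: CN-groups (Gorenstein, chapter 14.1) and centres of Frobenius complements. -/

set_option linter.unusedSectionVars false

namespace H2C

open Subgroup H9 Cfsg FT H2K
open H1 (Fpf)

universe u

section
variable {G : Type*} [Group G] [Finite G] {H K X Y P B : Subgroup G}

theorem fpf_inv_central (h : Fpf H K) (hK : K ≠ ⊥) (hn : H ≤ normalizer (K : Set G)) {t : G}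
    (ht : t ∈ H) (ho : orderOf t = 2) : t ∈ centralizer (H : Set G) := by
  have inv : ∀ s ∈ H, orderOf s = 2 → ∀ k ∈ K, s * k * s⁻¹ = k⁻¹ := fun s hs o k hk =>
    H1.conj_eq_inv_of_fpf (hn hs) (h s hs (by rintro rfl; simp at o))
      (by rw [← pow_two, ← o, pow_orderOf_eq_one]; exact one_mem _) hk
  intro g hg
  have h1 : g * t * g⁻¹ ∈ H := H.mul_mem (H.mul_mem hg ht) (H.inv_mem hg)
  have h2 := inv _ h1 (by rw [← ho]; exact (MulAut.conj g).orderOf_eq t)
  by_contra hne
  have h3 : t⁻¹ * (g * t * g⁻¹) ≠ 1 := fun e => hne (by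
    rw [inv_mul_eq_one] at e
    nth_rewrite 2 [e]; group)
  refine hK (eq_bot_iff.2 fun k hk => ?_)
  rw [← h _ (H.mul_mem (H.inv_mem ht) h1) h3]
  refine mem_inf.2 ⟨hk, mem_centralizer_singleton_iff.2 ?_⟩
  have e1 := h2 k hk
  have e2 := inv t ht ho k hk
  calc k * (t⁻¹ * (g * t * g⁻¹)) = t⁻¹ * (t * k * t⁻¹) * (g * t * g⁻¹) := by group
    _ = t⁻¹ * (g * t * g⁻¹ * k * (g * t * g⁻¹)⁻¹) * (g * t * g⁻¹) := by rw [e1, e2]
    _ = _ := by group

theorem fpf_center (h : Fpf H K) (hK : K ≠ ⊥) (hn : H ≤ normalizer (K : Set G)) (hH : H ≠ ⊥) :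
    H ⊓ centralizer (H : Set G) ≠ ⊥ := by
  have fin : ∀ x ∈ H, x ∈ centralizer (H : Set G) → (orderOf x).Prime →
      H ⊓ centralizer (H : Set G) ≠ ⊥ := fun x h1 h2 h3 e => by
    have : x ∈ H ⊓ centralizer (H : Set G) := ⟨h1, h2⟩
    rw [e, mem_bot] at this
    subst this; simp at h3; exact Nat.not_prime_one h3
  by_cases h2 : 2 ∣ Nat.card H
  · obtain ⟨t, ht, ho⟩ := exists_orderOf_eq_of_dvd h2
    exact fin t ht (fpf_inv_central h hK hn ht ho) (ho ▸ Nat.prime_two)
  have hodd : Odd (Nat.card H) := Nat.not_even_iff_odd.1 fun e => h2 (even_iff_two_dvd.1 e)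
  have hs := feit_thompson H hodd
  have hq := H1.pq_of_fpf hK hn h
  have h1 : Nat.card H ≠ 1 := fun e => hH (card_eq_one.1 e)
  have hp := Nat.minFac_prime h1
  haveI := Fact.mk hp
  obtain ⟨x, hx, ho⟩ := exists_orderOf_eq_of_dvd (Nat.minFac_dvd (Nat.card H))
  have hF := hq.mem_fitting hs hx (fun q _ Q h1 h3 h4 => by
    by_cases hq2 : q = 2
    · subst hq2
      rw [eq_bot_of_p_p' h3 (cop_of_le (cop_iff.2 h2) h1)]
      exact le_centralizer_iff.1 bot_le (mem_top x)
    · exact hq.cent_of_cyclic hx (ho ▸ hp) h1 h3 (h4 hx) (Or.inl hq2))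
  rw [Fit_eq] at hF
  have hxO : zpowers x ≤ Op (Nat.card H).minFac H :=
    ((sn_of_nilpotent (Fit_nil H) (zpowers_le_of_mem hF)).trans (sn_Fit H)).le_Op
      (isPGroup_zpowers_of_orderOf ho)
  have hN : H ≤ normalizer (zpowers x : Set G) := le_normalizer_of_cj_le fun g hg => by
    rw [cj_zpowers]
    refine zpowers_le_of_mem (hq.mem_zpowers_of_pgroup (Op_p _ H) (Op_le _ H) (hxO (mem_zpowers x))
      (conj_mem_of_le_normalizer (le_normalizer_Op _ H) hg (hxO (mem_zpowers x))) ho ?_)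
    rw [← ho]; exact (MulAut.conj g).orderOf_eq x
  refine fin x hx (le_centralizer_singleton_iff.1 (H1.le_centralizer_of_coprime_totient hN ?_)) (ho ▸ hp)
  rw [ho, Nat.totient_prime hp]
  refine Nat.coprime_of_dvd fun r hr h1 h2 => ?_
  have := Nat.minFac_le_of_dvd hr.two_le h1
  have := Nat.le_of_dvd (by have := hp.two_le; omega) h2
  have := hp.two_le
  omega

theorem nil_fpf_struct (h : Fpf H K) (hK : K ≠ ⊥) (hn : H ≤ normalizer (K : Set G))
    (hH : Group.IsNilpotent H) : IsCyclic H ∨ ∃ C Q : Subgroup G, C ⊔ Q = H ∧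
      (∀ a ∈ C, ∀ b ∈ Q, a * b = b * a) ∧ IsCyclic C ∧ Odd (Nat.card C) ∧
      ∃ n : ℕ, Nonempty (Q ≃* QuaternionGroup (2 ^ n)) := by
  have hq := H1.pq_of_fpf hK hn h
  have cyc : ∀ X ≤ H, IsCyclic (Op 2 X) → IsCyclic X := fun X hX hc => by
    haveI := nil_le hH hX
    haveI : IsZGroup X := isZGroup_iff_syl.2 fun p _ P hP => by
      by_cases hp : p = 2
      · subst hp
        rw [(syl_Op_of_nilpotent this).maximal hP.isP hP.le hP.Op_le]; exact hc
      · exact hq.cyclic_odd hp hP.isP (hP.le.trans hX)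
    infer_instance
  rcases cyclic_or_quat (Op_p 2 H) (rk_le_one_of_fpf ((Op_le 2 H).trans hn)
    (h.mono (Op_le 2 H) le_rfl) hK 2) with h1 | ⟨-, h1⟩
  · exact Or.inl (cyc H le_rfl h1)
  · refine Or.inr ⟨Op' 2 H, Op 2 H, by rw [sup_comm]; exact nilpotent_eq_Op_sup_Op' hH, fun a ha b hb =>
      commutator_eq_bot_iff_le_centralizer.1 (commutator_Op_Op' H) hb a ha, cyc _ (Op'_le 2 H) ?_,
      Nat.coprime_two_right.1 (Op'_cop 2 H), h1⟩
    rw [eq_bot_of_p_p' (Op_p 2 _) (cop_of_le (Op'_cop 2 H) (Op_le 2 _))]; infer_instance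

theorem nil_of_cent (hG : IsCNGroup G) (hY : Y ≠ ⊥) (h : X ≤ centralizer (Y : Set G)) :
    Group.IsNilpotent X := by
  obtain ⟨⟨y, hy⟩, h1⟩ := (ne_bot_iff_exists_ne_one).1 hY
  exact nil_le (hG y fun e => h1 (Subtype.ext e))
    (h.trans (centralizer_le (Set.singleton_subset_iff.2 hy)))

theorem cent_of_inf (hG : IsCNGroup G) (hP : Group.IsNilpotent P)
    (hc : (Nat.card B).Coprime (Nat.card P)) (h : P ⊓ centralizer (B : Set G) ≠ ⊥) :
    B ≤ centralizer (P : Set G) := by
  have h0 : P ≠ ⊥ := fun e => h (by rw [e, bot_inf_eq])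
  have hZ := inf_centralizer_ne_bot_of_nilpotent hP le_rfl le_normalizer h0
  have h1 : B ≤ centralizer ((P ⊓ centralizer (P : Set G) : Subgroup G) : Set G) :=
    H1.le_centralizer_of_coprime_of_nilpotent (nil_of_cent hG h le_rfl) (le_centralizer_iff.1 inf_le_right)
      (inf_le_right.trans (centralizer_anti inf_le_left))
      (hc.coprime_dvd_right (card_dvd_of_le inf_le_left))
  exact H1.le_centralizer_of_coprime_of_nilpotent (nil_of_cent hG hZ le_rfl) h1
    (le_centralizer_iff.1 inf_le_right) hc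

theorem cn_of_prime (h : ∀ g : G, (orderOf g).Prime → Group.IsNilpotent (centralizer ({g} : Set G))) :
    IsCNGroup G := fun g hg => by
  obtain ⟨r, hr, hd⟩ := Nat.exists_prime_and_dvd (n := orderOf g) (by simpa using hg)
  refine nil_le (h (g ^ (orderOf g / r)) (by rwa [orderOf_pow_orderOf_div (orderOf_pos g).ne' hd])) ?_
  intro x hx
  rw [mem_centralizer_singleton_iff] at hx ⊢
  exact ((Commute.pow_right hx _).eq)

theorem cn_equiv {G' : Type*} [Group G'] (e : G ≃* G') (h : IsCNGroup G) : IsCNGroup G' := fun g hg => by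
  have := h (e.symm g) (by simpa using hg)
  have e1 : centralizer ({g} : Set G') = (centralizer {e.symm g}).map e.toMonoidHom := by
    ext x
    simp only [mem_map, mem_centralizer_singleton_iff]
    constructor
    · intro hx
      exact ⟨e.symm x, by rw [← map_mul, ← map_mul, hx], by simp⟩
    · rintro ⟨y, hy, rfl⟩
      simpa using congrArg e hy
  rw [e1]; exact nil_map _ this

theorem cn_quot_p (hG : IsCNGroup G) {q : ℕ} [hq : Fact q.Prime] (V : Subgroup G) [V.Normal]
    (hV : IsPGroup q V) : IsCNGroup (G ⧸ V) := by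
  have lift : ∀ y : G, (orderOf y).Coprime q → centralizer ({QuotientGroup.mk' V y} : Set (G ⧸ V)) =
      (centralizer {y}).map (QuotientGroup.mk' V) := fun y hy => by
    have := H1.centralizer_map_mk' (A := zpowers y) (K := ⊤) (N := V) le_top
      (card_cop_of_p hV (by rwa [Nat.card_zpowers])).symm (Or.inl inferInstance)
    rwa [map_top_of_surjective _ (QuotientGroup.mk'_surjective V), top_inf_eq, top_inf_eq,
      MonoidHom.map_zpowers, centralizer_zpowers, centralizer_zpowers] at this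
  have lift2 : ∀ x : G ⧸ V, ¬ q ∣ orderOf x → ∃ y, QuotientGroup.mk' V y = x ∧ (orderOf y).Coprime q := by
    intro x hx
    obtain ⟨y, rfl⟩ := QuotientGroup.mk'_surjective V x
    obtain ⟨z, -, e, hz⟩ := H1.exists_lift_p' (QuotientGroup.mk' V) y hx
    exact ⟨z, e, cop_iff.2 hz⟩
  by_cases hV0 : V = ⊥
  · exact cn_equiv (by subst hV0; exact QuotientGroup.quotientBot.symm) hG
  refine cn_of_prime fun x hx => ?_
  by_cases hxq : orderOf x = q
  swap
  · obtain ⟨y, rfl, hy⟩ := lift2 x fun hd => hxq ((Nat.prime_dvd_prime_iff_eq hq.out hx).1 hd).symm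
    rw [lift y hy]
    exact nil_map _ (hG y (by rintro rfl; simp at hx; exact Nat.not_prime_one hx))
  set K := (centralizer ({x} : Set (G ⧸ V))).comap (QuotientGroup.mk' V) with hK
  obtain ⟨Q, hQ⟩ := exists_syl q K
  have hZ := inf_centralizer_ne_bot_of_p hV hQ.isP le_normalizer_of_normal hV0
  have h1 : Ores q K ≤ centralizer (V : Set G) := by
    refine sSup_le fun A hA y hy => ?_
    by_cases hy1 : y = 1
    · subst hy1; exact one_mem _
    have hyc : (orderOf y).Coprime q := hA.2.coprime_dvd_left (orderOf_dvd_card_of_mem hy)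
    have h2 : x ∈ centralizer ({QuotientGroup.mk' V y} : Set (G ⧸ V)) :=
      mem_centralizer_singleton_iff.2 (mem_centralizer_singleton_iff.1 (hA.1 hy)).symm
    rw [lift y hyc] at h2
    obtain ⟨z, hz, rfl⟩ := h2
    obtain ⟨w, hw, e, k, hk⟩ := H1.exists_lift_p (QuotientGroup.mk' V) (p := q) z ⟨1, by simpa using hxq⟩
    have hwp : IsPGroup q (zpowers w) := isPGroup_zpowers_of_pow (k := k) (by rw [← hk, pow_orderOf_eq_one])
    have h3 := cent_of_inf hG (P := zpowers w ⊔ V) (B := zpowers y)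
      (hwp.to_sup_of_normal_right hV).isNilpotent
      (card_cop_of_p (hwp.to_sup_of_normal_right hV) (by rwa [Nat.card_zpowers])).symm (fun e0 => by
        have : w ∈ (zpowers w ⊔ V) ⊓ centralizer (zpowers y : Set G) :=
          ⟨mem_sup_left (mem_zpowers w), by rw [centralizer_zpowers]; exact zpowers_le_of_mem hz hw⟩
        rw [e0, mem_bot] at this
        rw [← e, this] at hx
        simp at hx; exact Nat.not_prime_one hx)
    exact centralizer_anti le_sup_right (h3 (mem_zpowers y))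
  have h2 : K ≤ centralizer ((V ⊓ centralizer (Q : Set G) : Subgroup G) : Set G) := by
    rw [← hQ.Ores_sup]
    exact sup_le (h1.trans (centralizer_anti inf_le_left)) (le_centralizer_iff.1 inf_le_right)
  have := nil_map (QuotientGroup.mk' V) (nil_of_cent hG hZ h2)
  rwa [hK, map_comap_eq_self_of_surjective (QuotientGroup.mk'_surjective V)] at this

theorem exists_Op (hs : Group.IsSolvable H) (h0 : H ≠ ⊥) :
    ∃ p : ℕ, ∃ _ : Fact p.Prime, Op p H ≠ ⊥ := by
  by_contra hc
  push Not at hc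
  have hF : Fit H = ⊥ := eq_bot_iff.2 (Fit_le_of_forall_Op fun q hq => (hc q hq).le)
  have := centralizer_Fit_le_of_solvable hs
  rw [hF] at this
  exact h0 (eq_bot_iff.2 (le_trans (le_inf le_rfl (le_centralizer_iff.1 bot_le)) this))

theorem frob (hG : IsCNGroup G) (hn : ¬ Group.IsNilpotent G) (h0 : MF (⊤ : Subgroup G) ≠ ⊥) :
    ∃ E : Subgroup G, SD (MF ⊤) E ⊤ ∧ Fpf E (MF ⊤) ∧ E ≠ ⊥ ∧ Group.IsNilpotent E := by
  have hH := MF_hall (⊤ : Subgroup G)
  obtain ⟨E, hE⟩ := hH.exists_sd (le_normalizer_MF ⊤)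
  haveI : (MF (⊤ : Subgroup G)).Normal := normalizer_eq_top_iff.1 (eq_top_iff.2 (le_normalizer_MF ⊤))
  have hEp := hE.pi_right hH
  have hf : Fpf E (MF ⊤) := fpf_of_prime_subgroups fun R hR hp => by
    by_contra hne
    haveI := Fact.mk hp
    have h1 := cent_of_inf hG (MF_nil ⊤) ((piG_prs _).coprime (hEp.le hR)).symm hne
    obtain ⟨S, hS, hRS⟩ := exists_syl_ge (isPGroup_of_card_prime (H := R) rfl) (le_top (a := R))
    have hnd : ¬ Nat.card R ∣ Nat.card (MF (⊤ : Subgroup G)) := fun hd =>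
      hEp.le hR _ hp dvd_rfl ⟨hp, hd⟩
    have h2 := cent_of_inf hG (B := MF ⊤) hS.isP.isNilpotent
      (card_cop_of_p hS.isP (cop_iff.2 hnd)).symm
      (fun e => ne_bot_of_card_prime hp (eq_bot_iff.2 ((le_inf hRS h1).trans e.le)))
    have h3 : S ≤ Op (Nat.card R) ⊤ :=
      ((sn_of_nilpotent (nil_of_cent hG h0 le_rfl) (le_centralizer_iff.1 h2)).trans
        (SN.of_normal_top _)).le_Op hS.isP
    have h4 : Op (Nat.card R) ⊤ = S := le_antisymm hS.Op_le h3
    exact hnd (card_dvd_of_le (hRS.trans (h3.trans (Op_le_MF (h4 ▸ hS)))))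
  have hE0 : E ≠ ⊥ := fun e => hn (by
    have := hE.sup
    rw [e, sup_bot_eq] at this
    have h1 := MF_nil (⊤ : Subgroup G)
    rw [this] at h1
    exact nilpotent_of_mulEquiv topEquiv)
  exact ⟨E, hE, hf, hE0, nil_of_cent hG (fpf_center hf h0 hE.norm hE0) (le_centralizer_iff.1 inf_le_right)⟩

end

theorem cn_quot (n : ℕ) : ∀ (G : Type u) [Group G] [Finite G], Nat.card G ≤ n → IsCNGroup G →
    ∀ (H : Subgroup G) [H.Normal], Group.IsSolvable H → IsCNGroup (G ⧸ H) := by
  induction n with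
  | zero => intro G _ _ h; exact absurd (Nat.card_pos (α := G)) (by omega)
  | succ n ih =>
    intro G _ _ hn hG H _ hH
    by_cases h0 : H = ⊥
    · exact cn_equiv (by subst h0; exact QuotientGroup.quotientBot.symm) hG
    obtain ⟨q, hq, hV⟩ := exists_Op hH h0
    haveI : (Op q H).Normal := normalizer_eq_top_iff.1 (eq_top_iff.2 (normalizer_Op le_normalizer_of_normal))
    have := ih (G ⧸ Op q H) (by have := card_quot_lt _ hV; omega) (cn_quot_p hG _ (Op_p q H))
      (H.map (QuotientGroup.mk' _))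
      (solvable_of_surjective ((QuotientGroup.mk' _).subgroupMap_surjective H))
    exact cn_equiv (QuotientGroup.quotientQuotientEquivQuotient (Op q H) H (Op_le q H)) this

end H2C
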