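import Cfsg.Agent.H1.ES2
import Cfsg.Agent.L.PG2
import Cfsg.Agent.S5395
import Cfsg.Prelude.Def_KGroupFacts
import Cfsg.Prelude.Def_Classical

/-! H2.EQ: the extraspecial 2-group of a bilinear form over `ZMod 2` and its outer automorphisms. -/

set_option autoImplicit false

namespace H2.EQ
open Subgroup H1 Matrix
open scoped commutatorElement

variable {ι : Type} [Fintype ι] [DecidableEq ι]

@[ext] structure EB (β : LinearMap.BilinForm (ZMod 2) (ι → ZMod 2)) where
  v : ι → ZMod 2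
  c : ZMod 2

variable {β : LinearMap.BilinForm (ZMod 2) (ι → ZMod 2)}

instance : Mul (EB β) := ⟨fun x y => ⟨x.v + y.v, x.c + y.c + β x.v y.v⟩⟩
instance : One (EB β) := ⟨⟨0, 0⟩⟩
instance : Inv (EB β) := ⟨fun x => ⟨-x.v, -x.c + β x.v x.v⟩⟩

omit [Fintype ι] [DecidableEq ι] in
@[simp] theorem mul_v (x y : EB β) : (x * y).v = x.v + y.v := rfl
omit [Fintype ι] [DecidableEq ι] in
@[simp] theorem mul_c (x y : EB β) : (x * y).c = x.c + y.c + β x.v y.v := rfl
omit [Fintype ι] [DecidableEq ι] in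
@[simp] theorem one_v : (1 : EB β).v = 0 := rfl
omit [Fintype ι] [DecidableEq ι] in
@[simp] theorem one_c : (1 : EB β).c = 0 := rfl
omit [Fintype ι] [DecidableEq ι] in
@[simp] theorem inv_v (x : EB β) : x⁻¹.v = -x.v := rfl
omit [Fintype ι] [DecidableEq ι] in
@[simp] theorem inv_c (x : EB β) : x⁻¹.c = -x.c + β x.v x.v := rfl

instance : Group (EB β) := Group.ofLeftAxioms
  (fun x y z => by
    refine EB.ext (add_assoc _ _ _) ?_
    simp only [mul_v, mul_c, map_add, LinearMap.add_apply]; ring)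
  (fun x => by refine EB.ext (zero_add _) ?_; simp)
  (fun x => by
    refine EB.ext (neg_add_cancel _) ?_
    simp only [mul_c, inv_v, inv_c, map_neg, LinearMap.neg_apply, one_c]; ring)

def eqv (β : LinearMap.BilinForm (ZMod 2) (ι → ZMod 2)) : EB β ≃ (ι → ZMod 2) × ZMod 2 :=
  ⟨fun x => (x.v, x.c), fun y => ⟨y.1, y.2⟩, fun _ => rfl, fun _ => rfl⟩

instance : Finite (EB β) := Finite.of_equiv _ (eqv β).symm

def zz (β : LinearMap.BilinForm (ZMod 2) (ι → ZMod 2)) : EB β := ⟨0, 1⟩

theorem two (t : ZMod 2) : t + t = 0 := by revert t; decide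

omit [Fintype ι] [DecidableEq ι] in
theorem sq_eq (x : EB β) : x ^ 2 = ⟨0, β x.v x.v⟩ := by
  rw [pow_two]
  exact EB.ext (funext fun _ => two _) (by simp [two])

omit [Fintype ι] [DecidableEq ι] in
theorem zz_sq : zz β ^ 2 = 1 := by
  rw [sq_eq]; exact EB.ext rfl (by simp [zz])

omit [Fintype ι] [DecidableEq ι] in
theorem v0 {x : EB β} (h1 : x.v = 0) : x = 1 ∨ x = zz β := by
  have : ∀ c : ZMod 2, c = 0 ∨ c = 1 := by decide
  exact (this x.c).imp (fun e => EB.ext h1 e) (fun e => EB.ext h1 e)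

omit [Fintype ι] [DecidableEq ι] in
theorem mem_zz {x : EB β} (h1 : x.v = 0) : x ∈ zpowers (zz β) := (zp2 zz_sq).2 (v0 h1)

omit [Fintype ι] [DecidableEq ι] in
theorem comm_iff {x y : EB β} : Commute x y ↔ β x.v y.v = β y.v x.v := by
  constructor
  · intro h
    have := congrArg EB.c h.eq
    simp only [mul_c] at this
    linear_combination this
  · intro h
    refine EB.ext (add_comm _ _) ?_
    simp only [mul_c]
    linear_combination h

omit [Fintype ι] [DecidableEq ι] in
theorem zz_ne : zz β ≠ 1 := fun e => absurd (congrArg EB.c e) (by simp [zz])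

omit [DecidableEq ι] in
theorem xp (nd : ∀ v, (∀ w, β v w = β w v) → v = 0) {m : ℕ} (hm : Fintype.card ι = 2 * m) :
    XP 2 m ⊤ (zz β) where
  mem := trivial
  ord := orderOf_eq_prime zz_sq zz_ne
  cen := fun x _ => comm_iff.2 (by simp [zz])
  comm := fun x _ y _ => mem_zz (by simp [commutatorElement_def])
  nd := fun x _ h => mem_zz (nd _ fun w => comm_iff.1 (h ⟨w, 0⟩ trivial))
  cd := by
    rw [card_top, Nat.card_congr (eqv β)]
    simp only [Nat.card_prod, Nat.card_fun, Nat.card_zmod, Nat.card_eq_fintype_card (α := ι), hm]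
    ring

omit [DecidableEq ι] in
theorem elem {k : ℕ} (j : (Fin k → ZMod 2) → ι → ZMod 2) (h1 : ∀ a b, j (a + b) = j a + j b)
    (h2 : Function.Injective j) (h3 : ∀ a b, β (j a) (j b) = 0) :
    ∃ A : Subgroup (EB β), Cfsg.IsElementaryAbelian 2 A ∧ Nat.card A = 2 ^ (k + 1) ∧
      ∀ x ∈ A, ∃ a, x.v = j a := by
  let h : Multiplicative ((Fin k → ZMod 2) × ZMod 2) →* EB β := MonoidHom.mk'
    (fun a => ⟨j a.toAdd.1, a.toAdd.2⟩) fun a b => EB.ext (h1 _ _) (by simp [h3])
  have hi : Function.Injective h := fun a b e =>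
    Multiplicative.toAdd.injective (Prod.ext (h2 (congrArg EB.v e)) (congrArg EB.c e))
  refine ⟨h.range, ⟨inferInstance, ?_⟩, ?_, ?_⟩
  · rintro _ ⟨a, rfl⟩
    rw [sq_eq]
    exact EB.ext rfl (h3 _ _)
  · rw [← Nat.card_congr (MonoidHom.ofInjective hi).toEquiv, Nat.card_congr Multiplicative.toAdd]
    simp only [Nat.card_prod, Nat.card_fun, Nat.card_zmod, Nat.card_fin]
    ring
  · rintro _ ⟨a, rfl⟩
    exact ⟨_, rfl⟩

theorem exists_quad (γ : LinearMap.BilinForm (ZMod 2) (ι → ZMod 2)) (h : ∀ v, γ v v = 0) :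
    ∃ f : (ι → ZMod 2) → ZMod 2, ∀ v w, f (v + w) = f v + f w + γ v w := by
  let e := Fintype.equivFin ι
  let δ : LinearMap.BilinForm (ZMod 2) (ι → ZMod 2) := Matrix.toBilin'
    (Matrix.of fun i j => if e i < e j then γ (Pi.single i 1) (Pi.single j 1) else 0)
  have sy : ∀ v w, γ v w = γ w v := fun v w => by
    have := h (v + w)
    simp only [map_add, LinearMap.add_apply, h] at this
    linear_combination (two (γ v w)) - this
  have : δ + δ.flip = γ := by
    refine LinearMap.ext_basis (Pi.basisFun _ _) (Pi.basisFun _ _) fun i j => ?_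
    simp only [Pi.basisFun_apply, LinearMap.add_apply, LinearMap.BilinForm.flip_apply, δ,
      Matrix.toBilin'_single, Matrix.of_apply]
    rcases lt_trichotomy (e i) (e j) with k | k | k
    · simp [k, k.not_gt]
    · obtain rfl := e.injective k
      simp [h]
    · simp [k, k.not_gt, sy (Pi.single i 1)]
  refine ⟨fun v => δ v v, fun v w => ?_⟩
  rw [← this]
  simp only [map_add, LinearMap.add_apply, LinearMap.BilinForm.flip_apply]
  ring

section aut
variable (nd : ∀ v, (∀ w, β v w = β w v) → v = 0)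
include nd

omit [Fintype ι] [DecidableEq ι] in
theorem aut_zz (φ : MulAut (EB β)) : φ (zz β) = zz β := by
  refine (v0 (nd _ fun w => (comm_iff (x := φ (zz β)) (y := ⟨w, 0⟩)).1 ?_)).resolve_left
    (by simpa using zz_ne)
  rw [← φ.apply_symm_apply ⟨w, 0⟩]
  exact Commute.map (comm_iff.2 (by simp [zz])) φ

omit [Fintype ι] [DecidableEq ι] in
theorem aut_v (φ : MulAut (EB β)) (x : EB β) : (φ ⟨x.v, 0⟩).v = (φ x).v := by
  have : ∀ c : ZMod 2, c = 0 ∨ c = 1 := by decide
  rcases this x.c with e | e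
  · rw [← e]
  · have : x = ⟨x.v, 0⟩ * zz β := EB.ext (by simp [zz]) (by simp [zz, e])
    conv_rhs => rw [this, map_mul, aut_zz nd]
    simp [zz]

def LL (φ : MulAut (EB β)) : Module.End (ZMod 2) (ι → ZMod 2) :=
  (AddMonoidHom.mk' (fun v => (φ ⟨v, 0⟩).v) fun v w => by
    rw [← mul_v, ← map_mul, ← aut_v nd φ (_ * _)]; rfl).toZModLinearMap 2

omit [Fintype ι] [DecidableEq ι] in
theorem LL_apply (φ : MulAut (EB β)) (x : EB β) : LL nd φ x.v = (φ x).v := aut_v nd φ x

def rho : MulAut (EB β) →* Matrix ι ι (ZMod 2) where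
  toFun φ := LinearMap.toMatrix' (LL nd φ)
  map_one' := by
    rw [← LinearMap.toMatrix'_id]; rfl
  map_mul' φ ψ := by
    rw [← LinearMap.toMatrix'_mul]
    congr 1
    exact LinearMap.ext fun v => (LL_apply nd φ (ψ ⟨v, 0⟩)).symm

theorem rho_apply (φ : MulAut (EB β)) (x : EB β) : rho nd φ *ᵥ x.v = (φ x).v := by
  rw [← LL_apply nd]
  exact LinearMap.toMatrix'_mulVec _ _

theorem out_iso {m : ℕ} (hm : Fintype.card ι = 2 * (m + 1)) (Q : (ι → ZMod 2) → ZMod 2)
    (hQ : ∀ v, Q v = β v v) : Nonempty (Cfsg.Out (EB β) ≃* Cfsg.isometryGroup (ZMod 2) Q) := by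
  have h := xp nd hm
  have hE := L.isExtraspecial_top_iff.1 (h.toWS.extra h.nd h.ne_zp)
  have k : (rho nd).toHomUnits.ker = Cfsg.Inn (EB β) := by
    ext φ
    rw [MonoidHom.mem_ker, Units.ext_iff]
    constructor
    · intro e
      have e' : rho nd φ = 1 := e
      obtain ⟨g, hg⟩ := Cfsg.Agent.S5395.result hE φ fun x => mem_center_iff.2 fun y =>
        (comm_iff.2 (by simp [← rho_apply nd, e'])).eq
      exact ⟨g, MulEquiv.ext fun x => (hg x).symm⟩
    · rintro ⟨g, rfl⟩
      show LinearMap.toMatrix' _ = 1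
      rw [← LinearMap.toMatrix'_id]
      congr 1
      exact LinearMap.ext fun v => (LL_apply nd _ ⟨v, 0⟩).trans (by simp)
  have r : (rho nd).toHomUnits.range = Cfsg.isometryGroup (ZMod 2) Q := by
    ext g
    constructor
    · rintro ⟨φ, rfl⟩ u _
      show Q (rho nd φ *ᵥ (⟨u, 0⟩ : EB β).v) = Q u
      rw [rho_apply, hQ, hQ]
      have := map_pow φ ⟨u, 0⟩ 2
      rw [sq_eq, sq_eq] at this
      rcases v0 (x := (⟨0, β u u⟩ : EB β)) rfl with e | e
      · rw [e, map_one, ← e] at this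
        exact (congrArg EB.c this).symm
      · rw [e, aut_zz nd, ← e] at this
        exact (congrArg EB.c this).symm
    · intro hg
      have hg' : ∀ u, β (g.1 *ᵥ u) (g.1 *ᵥ u) = β u u := fun u => by
        rw [← hQ, ← hQ]; exact hg u u
      obtain ⟨f, hf⟩ := exists_quad (β.compl₁₂ (Matrix.toLin' g.1) (Matrix.toLin' g.1) - β)
        fun v => by simp [hg']
      let φ : EB β →* EB β := MonoidHom.mk' (fun x => ⟨g.1 *ᵥ x.v, x.c + f x.v⟩) fun x y =>
        EB.ext (Matrix.mulVec_add _ _ _) (by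
          simp only [mul_v, mul_c, hf, LinearMap.sub_apply, LinearMap.compl₁₂_apply, Matrix.toLin'_apply]
          ring)
      have hi : Function.Injective φ := fun x y e => by
        have e1 : x.v = y.v := Matrix.mulVec_injective_of_isUnit g.isUnit (congrArg EB.v e)
        have e2 : x.c + f x.v = y.c + f y.v := congrArg EB.c e
        exact EB.ext e1 (by rwa [e1, add_left_inj] at e2)
      refine ⟨MulEquiv.ofBijective φ (Finite.injective_iff_bijective.1 hi), Units.ext ?_⟩
      exact Matrix.ext_of_mulVec_single fun i => rho_apply nd _ ⟨_, 0⟩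
  exact ⟨(QuotientGroup.quotientMulEquivOfEq k.symm).trans
    ((QuotientGroup.quotientKerEquivRange _).trans (MulEquiv.subgroupCongr r))⟩

end aut

def outCg {X Y : Type*} [Group X] [Group Y] (α : X ≃* Y) : Cfsg.Out X ≃* Cfsg.Out Y :=
  QuotientGroup.congr _ _ (MulAut.congr α) (by
    ext β
    constructor
    · rintro ⟨_, ⟨g, rfl⟩, rfl⟩; exact ⟨α g, by ext; simp⟩
    · rintro ⟨g, rfl⟩; exact ⟨_, ⟨α.symm g, rfl⟩, by ext; simp⟩)

end H2.EQ
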