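import Mathlib
import Cfsg.Prelude.Def_FischerSpaces
set_option autoImplicit false

namespace H2.Fi
open Cfsg Cfsg.LineSystem

variable {X Y : Type*}

/-- the lines of `L` are the triples given by the operation `T` -/
structure Pres (L : Set (Set X)) (T : X → X → X) : Prop where
  q1 : ∀ x, T x x = x
  q2 : ∀ x y, T x (T x y) = y
  q3 : ∀ x y, T y x ≠ x → T y x = T x y
  ln : ∀ l, l ∈ L ↔ ∃ x y, T y x ≠ x ∧ l = {x, y, T y x}

namespace Pres
variable {L : Set (Set X)} {T : X → X → X} (h : Pres L T)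
include h

theorem ne {x y : X} (n : T y x ≠ x) : x ≠ y := by
  rintro rfl; exact n (h.q1 _)

theorem symm {x y : X} (n : T y x ≠ x) : T x y ≠ y := by
  intro e
  have e2 := (h.q3 x y n).trans e
  have := h.q2 y x
  rw [e2, h.q1] at this
  exact h.ne n this.symm

theorem ne' {x y : X} (n : T y x ≠ x) : T y x ≠ y := by
  rw [h.q3 x y n]; exact h.symm n

theorem any {l : Set X} (hl : l ∈ L) {u v : X} (hu : u ∈ l) (hv : v ∈ l) (n : u ≠ v) :
    T v u ≠ u ∧ l = {u, v, T v u} := by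
  obtain ⟨x, y, nx, rfl⟩ := (h.ln l).1 hl
  have ny := h.symm nx
  have e := h.q3 x y nx
  have a1 : T y (T y x) = x := h.q2 _ _
  have a2 : T x (T y x) = y := by rw [e]; exact h.q2 _ _
  have a3 : T (T y x) x = y := by
    rw [← h.q3 (T y x) x (by rw [a2]; exact (h.ne' nx).symm), a2]
  have a4 : T (T y x) y = x := by
    rw [← h.q3 (T y x) y (by rw [a1]; exact nx.symm), a1]
  have xy := h.ne nx
  have zy := h.ne' nx
  simp only [Set.mem_insert_iff, Set.mem_singleton_iff] at hu hv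
  rcases hu with rfl | rfl | rfl <;> rcases hv with rfl | rfl | rfl
  · exact (n rfl).elim
  · exact ⟨nx, rfl⟩
  · rw [a3]; exact ⟨xy.symm, by ext; simp only [Set.mem_insert_iff, Set.mem_singleton_iff]; tauto⟩
  · rw [← e]; exact ⟨zy, by ext; simp only [Set.mem_insert_iff, Set.mem_singleton_iff]; tauto⟩
  · exact (n rfl).elim
  · rw [a4]; exact ⟨xy, by ext; simp only [Set.mem_insert_iff, Set.mem_singleton_iff]; tauto⟩
  · rw [a2]; exact ⟨zy.symm, by ext; simp only [Set.mem_insert_iff, Set.mem_singleton_iff]; tauto⟩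
  · rw [a1]; exact ⟨nx.symm, by ext; simp only [Set.mem_insert_iff, Set.mem_singleton_iff]; tauto⟩
  · exact (n rfl).elim

theorem partialLinear : IsPartialLinear L := by
  intro l hl m hm x y n h1 h2 h3 h4
  rw [(h.any hl h1 h2 n).2, (h.any hm h3 h4 n).2]

theorem card3 {l : Set X} (hl : l ∈ L) : l.ncard = 3 := by
  obtain ⟨x, y, nx, rfl⟩ := (h.ln l).1 hl
  exact Set.ncard_eq_three.2 ⟨x, y, T y x, h.ne nx, nx.symm, (h.ne' nx).symm, rfl⟩

theorem mem {x y : X} (n : T y x ≠ x) : ({x, y, T y x} : Set X) ∈ L := (h.ln _).2 ⟨x, y, n, rfl⟩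

theorem closed {S : Set X} (hS : IsSubspace L S) {x y : X} (hx : x ∈ S) (hy : y ∈ S) : T y x ∈ S := by
  by_cases n : T y x = x
  · rw [n]; exact hx
  · exact hS _ (h.mem n) x hx y hy (h.ne n) (by simp) (by simp) (by simp)

theorem third {x y z : X} (n : x ≠ y) (n1 : z ≠ x) (n2 : z ≠ y) (hl : ({x, y, z} : Set X) ∈ L) :
    T y x = z := by
  have := (h.any hl (by simp) (by simp) n).2
  have hz : z ∈ ({x, y, T y x} : Set X) := this ▸ (by simp)
  simp only [Set.mem_insert_iff, Set.mem_singleton_iff] at hz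
  rcases hz with e | e | e
  exacts [(n1 e).elim, (n2 e).elim, e.symm]

end Pres

theorem span_sub (L : Set (Set X)) (A : Set X) : IsSubspace L (span L A) := by
  intro l hl x hx y hy n h1 h2 z hz S hS
  exact hS.2 l hl x (hx S hS) y (hy S hS) n h1 h2 hz

theorem le_span (L : Set (Set X)) (A : Set X) : A ⊆ span L A := fun _ hx _ hS => hS.1 hx

/-- transfer of the operation along an isomorphism of a subspace -/
theorem transfer {L : Set (Set X)} {T : X → X → X} (h : Pres L T) {M : Set (Set Y)} {T' : Y → Y → Y}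
    (h' : Pres M T') {S : Set X} (hS : IsSubspace L S) {e : S ≃ Y} (he : IsIso (restrict L S) M e)
    (x y : S) : e ⟨T y x, h.closed hS x.2 y.2⟩ = T' (e y) (e x) := by
  by_cases n : T y x = x
  · have : (⟨T y x, h.closed hS x.2 y.2⟩ : S) = x := Subtype.ext n
    rw [this]
    by_contra n'
    have hm := h'.mem (Ne.symm n')
    have : e '' (e ⁻¹' {e x, e y, T' (e y) (e x)}) ∈ M := by
      rwa [Set.image_preimage_eq _ e.surjective]
    obtain ⟨l, hl, -, e2⟩ := (he _).2 this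
    have hx : x ∈ {x : S | (x : X) ∈ l} := e2 ▸ (by simp)
    have hy : y ∈ {x : S | (x : X) ∈ l} := e2 ▸ (by simp)
    refine (h.any hl hx hy ?_).1 n
    intro e3
    exact h'.ne (Ne.symm n') (by rw [Subtype.ext e3])
  · have hm := h.mem n
    have : ({x, y, ⟨T y x, h.closed hS x.2 y.2⟩} : Set S) ∈ restrict L S := by
      refine ⟨_, hm, ?_, ?_⟩
      · rintro _ (rfl | rfl | rfl)
        exacts [x.2, y.2, h.closed hS x.2 y.2]
      · ext w
        simp only [Set.mem_insert_iff, Set.mem_singleton_iff, Set.mem_setOf_eq, Subtype.ext_iff]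
    have := (he _).1 this
    simp only [Set.image_insert_eq, Set.image_singleton] at this
    refine (h'.third ?_ ?_ ?_ this).symm
    · exact fun e3 => h.ne n (congrArg Subtype.val (e.injective e3))
    · exact fun e3 => n (congrArg Subtype.val (e.injective e3))
    · exact fun e3 => h.ne' n (congrArg Subtype.val (e.injective e3))

theorem plane_iso {L : Set (Set X)} {T : X → X → X} (h : Pres L T) {M : Set (Set Y)} {T' : Y → Y → Y}
    (h' : Pres M T') (f : Y → X) (hf : Function.Injective f) (hT : ∀ p q, f (T' p q) = T (f p) (f q))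
    (p0 p1 p2 : Y) (gen : ∀ P : Y → Prop, P p0 → P p1 → P p2 → (∀ p q, P p → P q → P (T' p q)) → ∀ p, P p) :
    Isomorphic (restrict L (span L ({f p0, f p1, T (f p1) (f p0)} ∪ {f p0, f p2, T (f p2) (f p0)}))) M := by
  obtain ⟨A, hA⟩ : ∃ A : Set X, A = {f p0, f p1, T (f p1) (f p0)} ∪ {f p0, f p2, T (f p2) (f p0)} := ⟨_, rfl⟩
  rw [← hA]
  have hS : span L A = Set.range f := by
    apply Set.Subset.antisymm
    · intro x hx
      refine hx _ ⟨?_, ?_⟩
      · rw [hA, ← hT, ← hT]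
        rintro _ ((rfl | rfl | rfl) | (rfl | rfl | rfl)) <;> exact ⟨_, rfl⟩
      · rintro l hl _ ⟨p, rfl⟩ _ ⟨q, rfl⟩ n h1 h2
        rw [(h.any hl h1 h2 n).2, ← hT]
        rintro _ (rfl | rfl | rfl) <;> exact ⟨_, rfl⟩
    · rintro _ ⟨p, rfl⟩
      refine gen (fun p => f p ∈ span L A) (le_span _ _ (by simp [hA])) (le_span _ _ (by simp [hA]))
        (le_span _ _ (by simp [hA])) (fun p q hp hq => ?_) p
      show f (T' p q) ∈ span L A
      rw [hT]
      exact h.closed (span_sub L A) hq hp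
  rw [hS]
  refine ⟨(Equiv.ofInjective f hf).symm, fun l => ?_⟩
  have key : ∀ p q, (Equiv.ofInjective f hf).symm ''
      {x : Set.range f | (x : X) ∈ ({f p, f q, T (f q) (f p)} : Set X)} = {p, q, T' q p} := by
    intro p q
    ext r
    rw [Equiv.image_eq_preimage_symm]
    simp only [Equiv.symm_symm, Set.mem_preimage, Set.mem_setOf_eq, Equiv.ofInjective_apply, ← hT,
      Set.mem_insert_iff, Set.mem_singleton_iff, hf.eq_iff]
  constructor
  · rintro ⟨l', hl', hsub, rfl⟩
    obtain ⟨x, y, n, rfl⟩ := (h.ln _).1 hl'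
    obtain ⟨p, rfl⟩ := hsub (show x ∈ _ by simp)
    obtain ⟨q, rfl⟩ := hsub (show y ∈ _ by simp)
    rw [key]
    exact h'.mem (fun e => n (by rw [← hT, e]))
  · intro hl
    obtain ⟨p, q, n, e⟩ := (h'.ln _).1 hl
    rw [← key] at e
    refine ⟨_, h.mem (x := f p) (y := f q) (by rw [← hT]; exact fun e => n (hf e)), ?_,
      (Equiv.ofInjective f hf).symm.injective.image_injective e⟩
    rw [← hT]
    rintro _ (rfl | rfl | rfl) <;> exact ⟨_, rfl⟩

/-! the two models -/

def TA (p q : Fin 2 → ZMod 3) : Fin 2 → ZMod 3 := -p - q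

theorem presA : Pres affinePlaneThree TA where
  q1 := by decide
  q2 := fun x y => by simp [TA]
  q3 := fun x y _ => by simp only [TA]; abel
  ln := by
    intro l
    constructor
    · rintro ⟨v, w, hw, rfl⟩
      have : ∀ v w : Fin 2 → ZMod 3, w ≠ 0 → TA (v + w) v ≠ v ∧
          ∀ x, (∃ c : ZMod 3, x = v + c • w) ↔ (x = v ∨ x = v + w ∨ x = TA (v + w) v) := by decide +kernel
      exact ⟨v, v + w, (this v w hw).1, Set.ext fun x => (this v w hw).2 x⟩
    · rintro ⟨x, y, n, rfl⟩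
      have : ∀ x y : Fin 2 → ZMod 3, TA y x ≠ x → y - x ≠ 0 ∧
          ∀ z, (z = x ∨ z = y ∨ z = TA y x) ↔ (∃ c : ZMod 3, z = x + c • (y - x)) := by decide +kernel
      exact ⟨x, y - x, (this x y n).1, Set.ext fun z => (this x y n).2 z⟩

theorem distA (x y z : Fin 2 → ZMod 3) : TA x (TA y z) = TA (TA x y) (TA x z) := by
  revert x y z; decide +kernel

def sw (s : DualAffinePoint) : Equiv.Perm (Fin 4) :=
  if s.val = {0, 1} then Equiv.swap 0 1 else if s.val = {0, 2} then Equiv.swap 0 2 else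
  if s.val = {0, 3} then Equiv.swap 0 3 else if s.val = {1, 2} then Equiv.swap 1 2 else
  if s.val = {1, 3} then Equiv.swap 1 3 else Equiv.swap 2 3

def TD (p q : DualAffinePoint) : DualAffinePoint :=
  ⟨q.val.map (sw p).toEmbedding, by rw [Finset.card_map]; exact q.2⟩

theorem presD : Pres dualAffinePlaneTwo TD where
  q1 := by decide +kernel
  q2 := by decide +kernel
  q3 := by decide +kernel
  ln := by
    intro l
    constructor
    · rintro ⟨i, rfl⟩
      have : ∀ i : Fin 4, ∃ x y : DualAffinePoint, TD y x ≠ x ∧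
          ∀ z : DualAffinePoint, i ∉ z.val ↔ (z = x ∨ z = y ∨ z = TD y x) := by decide +kernel
      obtain ⟨x, y, h1, h2⟩ := this i
      exact ⟨x, y, h1, Set.ext h2⟩
    · rintro ⟨x, y, n, rfl⟩
      have : ∀ x y : DualAffinePoint, TD y x ≠ x → ∃ i : Fin 4,
          ∀ z : DualAffinePoint, (z = x ∨ z = y ∨ z = TD y x) ↔ i ∉ z.val := by decide +kernel
      obtain ⟨i, h⟩ := this x y n
      exact ⟨i, Set.ext h⟩

theorem distD (x y z : DualAffinePoint) : TD x (TD y z) = TD (TD x y) (TD x z) := by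
  revert x y z; decide +kernel

theorem sw_T (p q : DualAffinePoint) : sw (TD p q) = sw p * sw q * (sw p)⁻¹ := by
  revert p q; decide +kernel

theorem sw_inj : Function.Injective sw := by
  intro p q; revert p q; decide +kernel

theorem sw_conj (p : DualAffinePoint) : ∃ g : Equiv.Perm (Fin 4), sw p = g * Equiv.swap 0 1 * g⁻¹ := by
  revert p; decide +kernel

/-! the operation of a Fischer space -/

theorem pres_lineMap {L : Set (Set X)} (h1 : IsPartialLinear L) (h3 : ∀ l ∈ L, l.ncard = 3) :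
    Pres L (lineMap L) := by
  have spec : ∀ x y z : X, z ≠ x → z ≠ y → x ≠ y → ({x, y, z} : Set X) ∈ L → lineMap L x y = z := by
    intro x y z a b c d
    have hex : ∃ z : X, z ≠ x ∧ z ≠ y ∧ x ≠ y ∧ ({x, y, z} : Set X) ∈ L := ⟨z, a, b, c, d⟩
    unfold lineMap
    rw [dif_pos hex]
    obtain ⟨a', b', -, d'⟩ := hex.choose_spec
    have := h1 _ d' _ d x y c (by simp) (by simp) (by simp) (by simp)
    have hz : hex.choose ∈ ({x, y, z} : Set X) := this ▸ (by simp)
    simp only [Set.mem_insert_iff, Set.mem_singleton_iff] at hz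
    rcases hz with e | e | e
    exacts [(a' e).elim, (b' e).elim, e]
  have spec' : ∀ x y : X, lineMap L x y ≠ y → lineMap L x y ≠ x ∧ x ≠ y ∧
      ({x, y, lineMap L x y} : Set X) ∈ L := by
    intro x y n
    by_cases hex : ∃ z : X, z ≠ x ∧ z ≠ y ∧ x ≠ y ∧ ({x, y, z} : Set X) ∈ L
    · obtain ⟨z, a, b, c, d⟩ := hex
      rw [spec x y z a b c d]
      exact ⟨a, c, d⟩
    · exact (n (by unfold lineMap; rw [dif_neg hex])).elim
  refine ⟨fun x => ?_, fun x y => ?_, fun x y n => ?_, fun l => ⟨fun hl => ?_, ?_⟩⟩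
  · by_contra n
    exact (spec' x x n).2.1 rfl
  · by_cases n : lineMap L x y = y
    · rw [n, n]
    · obtain ⟨a, b, c⟩ := spec' x y n
      exact spec _ _ _ b.symm (Ne.symm n) a.symm (by rwa [Set.pair_comm])
  · obtain ⟨a, b, c⟩ := spec' y x n
    exact (spec _ _ _ n a b.symm (by rwa [Set.insert_comm])).symm
  · obtain ⟨x, y, z, a, b, c, rfl⟩ := Set.ncard_eq_three.1 (h3 l hl)
    have := spec y x z c.symm b.symm a.symm (by rwa [Set.insert_comm])
    exact ⟨x, y, by rw [this]; exact b.symm, by rw [this]⟩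
  · rintro ⟨x, y, n, rfl⟩
    rw [Set.insert_comm]
    exact (spec' y x n).2.2

theorem dist_of_iso {L : Set (Set X)} {T : X → X → X} (h : Pres L T) {M : Set (Set Y)} {T' : Y → Y → Y}
    (h' : Pres M T') (d : ∀ x y z, T' x (T' y z) = T' (T' x y) (T' x z)) {S : Set X} (hS : IsSubspace L S)
    (he : Isomorphic (restrict L S) M) {x y z : X} (hx : x ∈ S) (hy : y ∈ S) (hz : z ∈ S) :
    T x (T y z) = T (T x y) (T x z) := by
  obtain ⟨e, he⟩ := he
  have t := transfer h h' hS he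
  have a1 := t ⟨T y z, h.closed hS hz hy⟩ ⟨x, hx⟩
  have a2 := t ⟨T x z, h.closed hS hz hx⟩ ⟨T x y, h.closed hS hy hx⟩
  rw [t ⟨z, hz⟩ ⟨y, hy⟩, d] at a1
  rw [t ⟨z, hz⟩ ⟨x, hx⟩, t ⟨y, hy⟩ ⟨x, hx⟩, ← a1] at a2
  exact (congrArg Subtype.val (e.injective a2)).symm

theorem dist_fischer {L : Set (Set X)} (hL : IsFischerSpace L) {T : X → X → X} (h : Pres L T)
    (x y z : X) : T x (T y z) = T (T x y) (T x z) := by
  have main : ∀ y z, T y z ≠ z → T x (T y z) = T (T x y) (T x z) := by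
    intro y z n
    have hl := h.mem n
    by_cases hx : x ∈ ({z, y, T y z} : Set X)
    · rcases hx with rfl | rfl | rfl
      · rw [h.q1, h.q3 _ _ n, h.q2]
        rw [← h.q3 (T x y) x (by rw [h.q2]; exact (h.symm n).symm), h.q2]
      · rw [h.q1]
      · have b1 : T (T y z) y = z := by
          rw [← h.q3 (T y z) y (by rw [h.q2]; exact n.symm), h.q2]
        have b0 : T z (T y z) = y := by rw [h.q3 _ _ n, h.q2]
        have b2 : T (T y z) z = y := by
          rw [← h.q3 (T y z) z (by rw [b0]; exact (h.ne' n).symm), b0]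
        rw [h.q1, b1, b2, h.q3 _ _ n]
    · by_cases hc : ∃ a ∈ ({z, y, T y z} : Set X), T x a ≠ a
      · obtain ⟨a, ha, na⟩ := hc
        have hm := h.mem na
        have hne : ({z, y, T y z} : Set X) ≠ {a, x, T x a} := fun e => hx (e ▸ (by simp))
        have s1 : x ∈ span L ({z, y, T y z} ∪ {a, x, T x a}) := le_span _ _ (by simp)
        have s2 : y ∈ span L ({z, y, T y z} ∪ {a, x, T x a}) := le_span _ _ (by simp)
        have s3 : z ∈ span L ({z, y, T y z} ∪ {a, x, T x a}) := le_span _ _ (by simp)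
        rcases hL.2.2 _ hl _ hm hne ⟨a, ha, by simp⟩ with i | i
        · exact dist_of_iso h presD distD (span_sub _ _) i s1 s2 s3
        · exact dist_of_iso h presA distA (span_sub _ _) i s1 s2 s3
      · push Not at hc
        rw [hc z (by simp), hc y (by simp), hc (T y z) (by simp)]
  by_cases n : T y z = z
  · rw [n]
    by_contra n'
    have := main _ _ (Ne.symm n')
    rw [h.q2, h.q2, n] at this
    have := congrArg (T x) this
    rw [h.q2] at this
    exact n' this.symm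
  · exact main y z n

/-! three 3-transpositions pairwise generating `S₃` -/

section Heis
variable {G : Type*} [Group G]

theorem comm_conj {x y : G} (hx : x * x * x = 1) (h1 : x * y * (x * y) * (x * y) = 1)
    (h2 : x⁻¹ * y * (x⁻¹ * y) * (x⁻¹ * y) = 1) : y * (x⁻¹ * y * x) = (x⁻¹ * y * x) * y := by
  have e1 : y * x⁻¹ * y = x * y⁻¹ * x := by
    calc y * x⁻¹ * y = x * (x⁻¹ * y * (x⁻¹ * y) * (x⁻¹ * y)) * y⁻¹ * x := by group
      _ = _ := by rw [h2]; group
  have e2 : y * x * y = x⁻¹ * y⁻¹ * x⁻¹ := by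
    calc y * x * y = x⁻¹ * (x * y * (x * y) * (x * y)) * y⁻¹ * x⁻¹ := by group
      _ = _ := by rw [h1]; group
  have e3 : x⁻¹ = x * x := by rw [inv_eq_iff_mul_eq_one, ← mul_assoc, hx]
  have e4 : x⁻¹ * x⁻¹ = x := by
    calc x⁻¹ * x⁻¹ = (x * x * x)⁻¹ * x := by group
      _ = x := by rw [hx]; group
  calc y * (x⁻¹ * y * x) = (y * x⁻¹ * y) * x := by group
    _ = x * y⁻¹ * (x * x) := by rw [e1]; group
    _ = (x⁻¹ * x⁻¹) * y⁻¹ * x⁻¹ := by rw [e4, ← e3]
    _ = x⁻¹ * (y * x * y) := by rw [e2]; group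
    _ = _ := by group

def FA (a x y : G) (v : Fin 2 → ZMod 3) : G :=
  x ^ (v 0).val * y ^ (v 1).val * a * (y ^ (2 * (v 1).val) * x ^ (2 * (v 0).val))

theorem FA_T {a x y : G} (ha : a * a = 1) (hx : x * x * x = 1) (hy : y * y * y = 1)
    (ax : a * x = x * x * a) (ay : a * y = y * y * a) (h1 : x * y * (x * y) * (x * y) = 1)
    (h2 : x⁻¹ * y * (x⁻¹ * y) * (x⁻¹ * y) = 1) (p q : Fin 2 → ZMod 3) :
    FA a x y (TA p q) = FA a x y p * FA a x y q * FA a x y p := by
  obtain ⟨z, hz⟩ : ∃ z, z = y⁻¹ * x⁻¹ * y * x := ⟨_, rfl⟩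
  have c1 := comm_conj hx h1 h2
  have c2 : x * (y⁻¹ * x * y) = (y⁻¹ * x * y) * x := by
    refine comm_conj hy ?_ ?_
    · calc y * x * (y * x) * (y * x) = y * (x * y * (x * y) * (x * y)) * y⁻¹ := by group
        _ = 1 := by rw [h1]; group
    · calc y⁻¹ * x * (y⁻¹ * x) * (y⁻¹ * x) = (x⁻¹ * y * (x⁻¹ * y) * (x⁻¹ * y))⁻¹ := by group
        _ = 1 := by rw [h2]; group
  have zy : z * y = y * z := by
    rw [hz]
    calc y⁻¹ * x⁻¹ * y * x * y = y⁻¹ * ((x⁻¹ * y * x) * y) := by group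
      _ = _ := by rw [← c1]; group
  have zx : z * x = x * z := by
    rw [hz]
    calc y⁻¹ * x⁻¹ * y * x * x = (y⁻¹ * x * y)⁻¹ * x * x := by group
      _ = (y⁻¹ * x * y)⁻¹ * (x * (y⁻¹ * x * y)) * (y⁻¹ * x * y)⁻¹ * x := by group
      _ = _ := by rw [c2]; group
  have yx : y * x = x * y * z := by rw [hz]; group
  have ix : x⁻¹ = x * x := by rw [inv_eq_iff_mul_eq_one, ← mul_assoc, hx]
  have iy : y⁻¹ = y * y := by rw [inv_eq_iff_mul_eq_one, ← mul_assoc, hy]
  have ax' : a * x * a⁻¹ = x⁻¹ := by rw [ax, ix]; group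
  have ay' : a * y * a⁻¹ = y⁻¹ := by rw [ay, iy]; group
  have az : a * z = z * a := by
    calc a * z = (a * y * a⁻¹)⁻¹ * (a * x * a⁻¹)⁻¹ * (a * y * a⁻¹) * (a * x * a⁻¹) * a := by
          rw [hz]; group
      _ = y * (x * z) * x⁻¹ * y⁻¹ * a := by rw [ax', ay', hz]; group
      _ = (y * z) * y⁻¹ * a := by rw [← zx]; group
      _ = z * a := by rw [← zy]; group
  have r1 : ∀ t, y * (x * t) = x * (y * (z * t)) := fun t => by rw [← mul_assoc, yx]; group
  have r2 : ∀ t, z * (x * t) = x * (z * t) := fun t => by rw [← mul_assoc, zx]; group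
  have r3 : ∀ t, z * (y * t) = y * (z * t) := fun t => by rw [← mul_assoc, zy]; group
  have r4 : ∀ t, a * (x * t) = x * (x * (a * t)) := fun t => by rw [← mul_assoc, ax]; simp only [mul_assoc]
  have r5 : ∀ t, a * (y * t) = y * (y * (a * t)) := fun t => by rw [← mul_assoc, ay]; simp only [mul_assoc]
  have r6 : ∀ t, a * (z * t) = z * (a * t) := fun t => by rw [← mul_assoc, az]; group
  have r7 : ∀ t, x * (x * (x * t)) = t := fun t => by rw [← mul_assoc, ← mul_assoc, hx, one_mul]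
  have r8 : ∀ t, y * (y * (y * t)) = t := fun t => by rw [← mul_assoc, ← mul_assoc, hy, one_mul]
  have r9 : ∀ t, a * (a * t) = t := fun t => by rw [← mul_assoc, ha, one_mul]
  have r10 : ∀ t, z * (z * (z * t)) = t := fun t => by
    have : y * (x * (x * (x * t))) = x * (x * (x * (y * (z * (z * (z * t)))))) := by
      simp only [r1, r2]
    rw [r7, r7] at this
    exact (mul_left_cancel this).symm
  have key : ∀ i j k l : Fin 3, ∀ t, x ^ (-i - k).val * y ^ (-j - l).val * a *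
      (y ^ (2 * (-j - l).val) * x ^ (2 * (-i - k).val)) * t =
      x ^ i.val * y ^ j.val * a * (y ^ (2 * j.val) * x ^ (2 * i.val)) *
      (x ^ k.val * y ^ l.val * a * (y ^ (2 * l.val) * x ^ (2 * k.val))) *
      (x ^ i.val * y ^ j.val * a * (y ^ (2 * j.val) * x ^ (2 * i.val))) * t := by
    have v : ∀ i k : Fin 3, (-i - k).val = (6 - i.val - k.val) % 3 := by decide
    intro i j k l t
    rw [v, v]
    fin_cases i <;> fin_cases j <;> fin_cases k <;> fin_cases l <;>
      simp only [Nat.reduceSub, Nat.reduceMod, Nat.reduceMul, pow_succ, pow_zero, one_mul, mul_one,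
        mul_assoc, r1, r2, r3, r4, r5, r6, r7, r8, r9, r10]
  have := key (p 0) (p 1) (q 0) (q 1) 1
  rw [mul_one, mul_one] at this
  exact this

end Heis

theorem genA (P : (Fin 2 → ZMod 3) → Prop) (h0 : P ![0, 0]) (h1 : P ![1, 0]) (h2 : P ![0, 1])
    (h : ∀ p q, P p → P q → P (TA p q)) (p : Fin 2 → ZMod 3) : P p := by
  have : ∀ p : Fin 2 → ZMod 3, ∃ u ∈ [![0, 0], ![1, 0], TA ![0, 0] ![1, 0]],
      ∃ v ∈ [![0, 0], ![0, 1], TA ![0, 0] ![0, 1]], p = TA u v := by decide +kernel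
  obtain ⟨u, hu, v, hv, rfl⟩ := this p
  simp only [List.mem_cons, List.not_mem_nil, or_false] at hu hv
  refine h _ _ ?_ ?_
  · rcases hu with rfl | rfl | rfl
    exacts [h0, h1, h _ _ h0 h1]
  · rcases hv with rfl | rfl | rfl
    exacts [h0, h2, h _ _ h0 h2]

theorem injA {T : X → X → X} (f : (Fin 2 → ZMod 3) → X) (hT : ∀ p q, f (TA p q) = T (f p) (f q))
    (n1 : f ![0, 0] ≠ f ![1, 0]) (n2 : f ![0, 0] ≠ f ![0, 1]) (n3 : f ![1, 0] ≠ f ![0, 1])
    (n4 : f ![1, 0] ≠ f (TA ![0, 0] ![0, 1])) : Function.Injective f := by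
  intro p q e
  by_contra n
  have s1 : ∀ v, f (v + (p - q)) = f v := by
    intro v
    have a : TA (-p - v) p = v := by simp [TA]
    have b : TA (-p - v) q = v + (p - q) := by simp only [TA]; abel
    rw [← b, hT, ← e, ← hT, a]
  have : ∀ d : Fin 2 → ZMod 3, d ≠ 0 →
      (![1, 0] = ![0, 0] + d ∨ ![1, 0] = ![0, 0] + d + d) ∨ (![0, 1] = ![0, 0] + d ∨ ![0, 1] = ![0, 0] + d + d) ∨
      (![0, 1] = ![1, 0] + d ∨ ![0, 1] = ![1, 0] + d + d) ∨
      (TA ![0, 0] ![0, 1] = ![1, 0] + d ∨ TA ![0, 0] ![0, 1] = ![1, 0] + d + d) := by decide +kernel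
  rcases this (p - q) (sub_ne_zero.2 n) with (h | h) | (h | h) | (h | h) | (h | h)
  · exact n1 (by rw [h, s1])
  · exact n1 (by rw [h, s1, s1])
  · exact n2 (by rw [h, s1])
  · exact n2 (by rw [h, s1, s1])
  · exact n3 (by rw [h, s1])
  · exact n3 (by rw [h, s1, s1])
  · exact n4 (by rw [h, s1])
  · exact n4 (by rw [h, s1, s1])

def d01 : DualAffinePoint := ⟨{0, 1}, by decide⟩
def d12 : DualAffinePoint := ⟨{1, 2}, by decide⟩
def d23 : DualAffinePoint := ⟨{2, 3}, by decide⟩

theorem genD (P : DualAffinePoint → Prop) (h0 : P d12) (h1 : P d01) (h2 : P d23)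
    (h : ∀ p q, P p → P q → P (TD p q)) (p : DualAffinePoint) : P p := by
  have : ∀ p : DualAffinePoint, p = d12 ∨ p = d01 ∨ p = d23 ∨ p = TD d12 d01 ∨ p = TD d12 d23 ∨
      p = TD d01 (TD d12 d23) := by decide +kernel
  rcases this p with rfl | rfl | rfl | rfl | rfl | rfl
  exacts [h0, h1, h2, h _ _ h0 h1, h _ _ h0 h2, h _ _ h1 (h _ _ h0 h2)]

end H2.Fi
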