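import Mathlib
set_option autoImplicit false

namespace H2.JS
open MulAction
open scoped Pointwise

variable {G Ω : Type*} [Group G] [MulAction G Ω]

theorem two_of_jordan [Finite Ω] (hprim : IsPreprimitive G Ω) (Γ : Set Ω) (h1 : 1 < Γ.ncard)
    (hne : Γᶜ.Nonempty)
    (htr : ∀ x ∈ Γ, ∀ y ∈ Γ, ∃ g : G, (∀ z ∉ Γ, g • z = z) ∧ g • x = y) :
    IsMultiplyPretransitive G Ω 2 := by
  have hpos : 0 < Γᶜ.ncard := (Set.ncard_pos (Set.toFinite _)).2 hne
  have hadd := Set.ncard_add_ncard_compl Γ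
  refine hprim.is_two_pretransitive (s := Γᶜ) (n := Γᶜ.ncard - 1) (by omega) (by omega) ⟨?_⟩
  rintro ⟨x, hx⟩ ⟨y, hy⟩
  have hx' : x ∈ Γ := by simpa [SubMulAction.mem_ofFixingSubgroup_iff] using hx
  have hy' : y ∈ Γ := by simpa [SubMulAction.mem_ofFixingSubgroup_iff] using hy
  obtain ⟨g, hg, hxy⟩ := htr x hx' y hy'
  refine ⟨⟨g, ?_⟩, Subtype.ext hxy⟩
  rw [mem_fixingSubgroup_iff]
  intro z hz
  exact hg z hz

/-- pairs counting -/
theorem pair_swap [Finite G] (h2 : ∀ a b c d : Ω, a ≠ b → c ≠ d → ∃ g : G, g • a = c ∧ g • b = d)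
    (S : Set Ω) {x y u v : Ω} (hxy : x ≠ y) (huv : u ≠ v)
    (h : ∀ g : G, g • x ∈ S → g • y ∈ S → g • u ∈ S ∧ g • v ∈ S) :
    ∀ g : G, g • u ∈ S → g • v ∈ S → g • x ∈ S ∧ g • y ∈ S := by
  obtain ⟨k, hk1, hk2⟩ := h2 x y u v hxy huv
  have hsub : {g : G | g • x ∈ S ∧ g • y ∈ S} ⊆ {g : G | g • u ∈ S ∧ g • v ∈ S} :=
    fun g hg => h g hg.1 hg.2
  have hle : {g : G | g • u ∈ S ∧ g • v ∈ S}.ncard ≤ {g : G | g • x ∈ S ∧ g • y ∈ S}.ncard := by
    refine Set.ncard_le_ncard_of_injOn (fun g => g * k) ?_ ?_ (Set.toFinite _)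
    · intro g hg
      simp only [Set.mem_setOf_eq, mul_smul, hk1, hk2] at hg ⊢
      exact hg
    · intro a _ b _ hab
      exact mul_right_cancel hab
  have := Set.eq_of_subset_of_ncard_le hsub hle (Set.toFinite _)
  intro g h1 h2
  have : g ∈ {g : G | g • x ∈ S ∧ g • y ∈ S} := this ▸ (show g ∈ {g : G | g • u ∈ S ∧ g • v ∈ S} from ⟨h1, h2⟩)
  exact this

theorem ncard_pre (g : G) (Γ : Set Ω) : {x : Ω | g • x ∈ Γ}.ncard = Γ.ncard := by
  have : {x : Ω | g • x ∈ Γ} = (fun x => g⁻¹ • x) '' Γ := by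
    ext x
    constructor
    · intro hx
      exact ⟨g • x, hx, by simp⟩
    · rintro ⟨y, hy, rfl⟩
      simpa using hy
  rw [this, Set.ncard_image_of_injective _ (MulAction.injective g⁻¹)]

/-- no third point on "lines" of complements when the Jordan set is small -/
theorem no_line [Finite G] [Finite Ω]
    (h2 : ∀ a b c d : Ω, a ≠ b → c ≠ d → ∃ g : G, g • a = c ∧ g • b = d)
    (Γ : Set Ω) (hΓ : Γ.Nonempty) (hs : 2 * Γ.ncard ≤ Nat.card Ω) {α β γ : Ω} (hab : α ≠ β)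
    (hac : α ≠ γ) (hbc : β ≠ γ) (h : ∀ g : G, g • α ∉ Γ → g • β ∉ Γ → g • γ ∉ Γ) : False := by
  classical
  have third : ∀ x y : Ω, x ≠ y → ∃ z, z ≠ x ∧ z ≠ y ∧
      ∀ g : G, g • x ∉ Γ → g • y ∉ Γ → g • z ∉ Γ := by
    intro x y hxy
    obtain ⟨k, hk1, hk2⟩ := h2 α β x y hab hxy
    refine ⟨k • γ, ?_, ?_, ?_⟩
    · rw [← hk1]; exact fun e => hac (MulAction.injective k e).symm
    · rw [← hk2]; exact fun e => hbc (MulAction.injective k e).symm
    · intro g h1 h2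
      rw [← hk1, ← mul_smul] at h1
      rw [← hk2, ← mul_smul] at h2
      rw [← mul_smul]
      exact h _ h1 h2
  obtain ⟨x, hx⟩ := hΓ
  have hch : ∀ y : Ω, ∃ z, y ∉ Γ → z ≠ x ∧ z ≠ y ∧
      ∀ g : G, g • x ∉ Γ → g • y ∉ Γ → g • z ∉ Γ := by
    intro y
    by_cases hy : y ∈ Γ
    · exact ⟨y, fun h => (h hy).elim⟩
    · obtain ⟨z, hz⟩ := third x y (fun e => hy (e ▸ hx))
      exact ⟨z, fun _ => hz⟩
  choose t ht using hch
  have hle : Γᶜ.ncard ≤ (Γ \ {x}).ncard := by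
    refine Set.ncard_le_ncard_of_injOn t ?_ ?_ (Set.toFinite _)
    · intro y hy
      obtain ⟨h1, h3, h4⟩ := ht y hy
      have hxy : x ≠ y := fun e => hy (e ▸ hx)
      refine ⟨?_, h1⟩
      by_contra hz
      have := pair_swap h2 Γᶜ hxy h3.symm (fun g a b => ⟨b, h4 g a b⟩) 1
        (by simpa using hy) (by simpa using hz)
      exact this.1 (by simpa using hx)
    · intro y hy y' hy' e
      by_contra hne
      obtain ⟨h1, h3, h4⟩ := ht y hy
      obtain ⟨h1', h3', h4'⟩ := ht y' hy'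
      have hxy : x ≠ y := fun e => hy (e ▸ hx)
      have hxy' : x ≠ y' := fun e => hy' (e ▸ hx)
      have a1 := pair_swap h2 Γᶜ hxy h1.symm (fun g a b => ⟨a, h4 g a b⟩)
      have a2 := pair_swap h2 Γᶜ hxy' h1'.symm (fun g a b => ⟨a, h4' g a b⟩)
      rw [← e] at a2
      have := pair_swap h2 Γᶜ h1.symm hne (fun g a b => ⟨(a1 g a b).2, (a2 g a b).2⟩) 1
        (by simpa using hy) (by simpa using hy')
      exact this.1 (by simpa using hx)
  have hadd := Set.ncard_add_ncard_compl Γ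
  have := Set.ncard_diff_singleton_add_one hx (Set.toFinite Γ)
  omega

theorem prim_stab [Finite G] [Finite Ω]
    (h2 : ∀ a b c d : Ω, a ≠ b → c ≠ d → ∃ g : G, g • a = c ∧ g • b = d)
    (Γ : Set Ω) (h1 : 1 < Γ.ncard) (hs : 2 * Γ.ncard ≤ Nat.card Ω)
    (htr : ∀ x ∈ Γ, ∀ y ∈ Γ, ∃ g : G, (∀ z ∉ Γ, g • z = z) ∧ g • x = y) (α : Ω) :
    IsPreprimitive (stabilizer G α) (SubMulAction.ofStabilizer G α) := by
  have hmem : ∀ x : SubMulAction.ofStabilizer G α, (x : Ω) ≠ α := fun x =>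
    (SubMulAction.mem_ofStabilizer_iff G α).1 x.2
  have htrans : IsPretransitive (stabilizer G α) (SubMulAction.ofStabilizer G α) := by
    refine ⟨fun x y => ?_⟩
    obtain ⟨g, hg1, hg2⟩ := h2 α x α y (hmem x).symm (hmem y).symm
    exact ⟨⟨g, hg1⟩, Subtype.ext hg2⟩
  refine { toIsPretransitive := htrans, isTrivialBlock_of_isBlock := ?_ }
  intro B hB
  by_contra hnt
  simp only [IsTrivialBlock, not_or] at hnt
  obtain ⟨hns, hnu⟩ := hnt
  obtain ⟨β, hβ, γ, hγ, hβγ⟩ := (Set.not_subsingleton_iff.1 hns)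
  obtain ⟨δ, hδ⟩ := (Set.ne_univ_iff_exists_notMem B).1 hnu
  obtain ⟨B', hB'⟩ : ∃ B' : Set Ω, B' = Subtype.val '' B := ⟨_, rfl⟩
  have J : ∀ g : G, g • α ∉ Γ → ∀ x ∈ B, ∀ y ∈ B, g • (x : Ω) ∈ Γ → g • (y : Ω) ∉ Γ →
      {z : Ω | g • z ∈ Γ} ⊆ B' := by
    intro g hg x hx y hy hxΓ hyΓ z hz
    obtain ⟨h, hh, hxz⟩ := htr _ hxΓ _ hz
    have hst : g⁻¹ * h * g ∈ stabilizer G α := by
      rw [mem_stabilizer_iff, mul_smul, mul_smul, hh _ hg, inv_smul_smul]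
    have hy2 : (⟨_, hst⟩ : stabilizer G α) • y = y := by
      apply Subtype.ext
      show (g⁻¹ * h * g) • (y : Ω) = y
      rw [mul_smul, mul_smul, hh _ hyΓ, inv_smul_smul]
    have hBe : (⟨_, hst⟩ : stabilizer G α) • B = B := hB.smul_eq_of_mem hy (by rw [hy2]; exact hy)
    have : (⟨_, hst⟩ : stabilizer G α) • x ∈ B := by
      rw [← hBe]; exact Set.smul_mem_smul_set hx
    rw [hB']
    refine ⟨_, this, ?_⟩
    show (g⁻¹ * h * g) • (x : Ω) = z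
    rw [mul_smul, mul_smul, hxz, inv_smul_smul]
  have hδ' : (δ : Ω) ∉ B' := by
    rw [hB']
    rintro ⟨w, hw, e⟩
    exact hδ ((Subtype.ext e : w = δ) ▸ hw)
  have hα' : α ∉ B' := by
    rw [hB']
    rintro ⟨w, -, e⟩
    exact hmem w e
  by_cases hk : Γ.ncard ≤ B'.ncard
  · have inside : ∀ g : G, g • α ∉ Γ → ∀ x ∈ B, g • (x : Ω) ∈ Γ → {z : Ω | g • z ∈ Γ} ⊆ B' := by
      intro g hg x hx hxΓ
      by_cases hall : ∀ y ∈ B, g • (y : Ω) ∈ Γ
      · have hsub : B' ⊆ {z : Ω | g • z ∈ Γ} := by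
          rw [hB']
          rintro _ ⟨w, hw, rfl⟩
          exact hall w hw
        exact (Set.eq_of_subset_of_ncard_le hsub (by rw [ncard_pre]; exact hk) (Set.toFinite _)).ge
      · push Not at hall
        obtain ⟨y, hy, hyΓ⟩ := hall
        exact J g hg x hx y hy hxΓ hyΓ
    obtain ⟨a, b, ha, hb, hab⟩ := (Set.one_lt_ncard_iff (Set.toFinite Γ)).1 h1
    obtain ⟨g, hg1, hg2⟩ := h2 α δ a b (hmem δ).symm hab
    have hsub : insert α B' ⊆ {z : Ω | g • z ∈ Γ} := by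
      intro z hz
      rcases hz with rfl | hz
      · show g • z ∈ Γ
        rw [hg1]; exact ha
      · rw [hB'] at hz
        obtain ⟨w, hw, rfl⟩ := hz
        have hwδ : (w : Ω) ≠ δ := fun e => hδ ((Subtype.ext e : w = δ) ▸ hw)
        refine (pair_swap h2 Γ hwδ (hmem δ).symm (fun k k1 k2 => ⟨?_, k2⟩) g (hg1 ▸ ha) (hg2 ▸ hb)).1
        by_contra hkα
        exact hδ' (inside k hkα w hw k1 k2)
    have := Set.ncard_le_ncard hsub (Set.toFinite _)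
    rw [ncard_pre, Set.ncard_insert_of_notMem hα' (Set.toFinite _)] at this
    omega
  · refine no_line h2 Γ ((Set.ncard_pos (Set.toFinite _)).1 (by omega)) hs (hmem β).symm
      (hmem γ).symm (fun e => hβγ (Subtype.ext e)) ?_
    intro g hg hgβ hgγ
    have := Set.ncard_le_ncard (J g hg γ hγ β hβ hgγ hgβ) (Set.toFinite _)
    rw [ncard_pre] at this
    exact hk this

theorem three_of_jordan [Finite G] [Finite Ω] (hprim : IsPreprimitive G Ω) (Γ : Set Ω)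
    (h1 : 1 < Γ.ncard) (hs : 2 * Γ.ncard ≤ Nat.card Ω)
    (htr : ∀ x ∈ Γ, ∀ y ∈ Γ, ∃ g : G, (∀ z ∉ Γ, g • z = z) ∧ g • x = y) :
    IsMultiplyPretransitive G Ω 3 := by
  have hadd := Set.ncard_add_ncard_compl Γ
  obtain ⟨α, β, hα, hβ, hαβ⟩ := (Set.one_lt_ncard_iff (Set.toFinite Γᶜ)).1 (by omega)
  have h2' := two_of_jordan hprim Γ h1 ⟨α, hα⟩ htr
  have h2 : ∀ a b c d : Ω, a ≠ b → c ≠ d → ∃ g : G, g • a = c ∧ g • b = d :=
    fun a b c d h h' => is_two_pretransitive_iff.1 h2' h h'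
  have hp := prim_stab h2 Γ h1 hs htr α
  haveI := hprim.toIsPretransitive
  rw [show (3 : ℕ) = Nat.succ 2 from rfl, SubMulAction.ofStabilizer.isMultiplyPretransitive (a := α)]
  have hin : ∀ x ∈ Γ, x ∈ SubMulAction.ofStabilizer G α := by
    intro x hx
    rw [SubMulAction.mem_ofStabilizer_iff]
    rintro rfl
    exact hα hx
  refine two_of_jordan hp {x | (x : Ω) ∈ Γ} ?_ ⟨⟨β, ?_⟩, hβ⟩ ?_
  · obtain ⟨a, b, ha, hb, hab⟩ := (Set.one_lt_ncard_iff (Set.toFinite Γ)).1 h1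
    exact (Set.one_lt_ncard_iff (Set.toFinite _)).2
      ⟨⟨a, hin a ha⟩, ⟨b, hin b hb⟩, ha, hb, fun e => hab (congrArg Subtype.val e)⟩
  · rw [SubMulAction.mem_ofStabilizer_iff]
    exact hαβ.symm
  · intro x hx y hy
    obtain ⟨g, hg, hxy⟩ := htr x hx y hy
    exact ⟨⟨g, hg α hα⟩, fun z hz => Subtype.ext (hg z hz), Subtype.ext hxy⟩

end H2.JS
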