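import Cfsg.Agent.H8.LeCls
import Cfsg.Agent.H8.GO

/-! H2.LeU: Conway's characterisation of the Leech lattice in frame coordinates (`Fr.main`). -/

set_option autoImplicit false

namespace H2
open Cfsg Finset

structure Fr {α : Type} [Fintype α] (M : AddSubgroup (α → ℤ)) : Prop where
  card : Fintype.card α = 24
  dot : ∀ x ∈ M, ∀ y ∈ M, (8 : ℤ) ∣ ∑ a, x a * y a
  ev : ∀ x ∈ M, (16 : ℤ) ∣ ∑ a, x a ^ 2
  min : ∀ x ∈ M, x ≠ 0 → 32 ≤ ∑ a, x a ^ 2
  four : ∀ m : α → ℤ, (2 : ℤ) ∣ ∑ a, m a → (fun a => 4 * m a) ∈ M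
  cnt : {x | x ∈ M ∧ ∑ a, x a ^ 2 = 32}.ncard = 196560

namespace Fr
variable {α : Type} [Fintype α] [DecidableEq α] {M : AddSubgroup (α → ℤ)} (h : Fr M)

def code (M : AddSubgroup (α → ℤ)) : Submodule (ZMod 2) (α → ZMod 2) where
  carrier := {w | ∃ k : α → ℤ, (fun a => 2 * k a) ∈ M ∧ w = fun a => (k a : ZMod 2)}
  zero_mem' := ⟨0, by convert M.zero_mem using 1; ext; simp, by ext; simp⟩
  add_mem' := by
    rintro _ _ ⟨k, a, rfl⟩ ⟨l, b, rfl⟩
    exact ⟨k + l, by convert M.add_mem a b using 1; ext; simp [mul_add], by ext; simp⟩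
  smul_mem' := by
    rintro c _ ⟨k, a, rfl⟩
    rcases H7.zmod2_cases c with rfl | rfl
    · exact ⟨0, by convert M.zero_mem using 1; ext; simp, by ext; simp⟩
    · exact ⟨k, a, by simp⟩

include h

theorem par {x : α → ℤ} (hx : x ∈ M) (a b : α) : x a % 2 = x b % 2 := by
  have := h.dot x hx _ (h.four (Pi.single a 1 + Pi.single b 1) (by simp [sum_add_distrib]))
  simp only [Pi.add_apply, mul_add, sum_add_distrib, Pi.single_apply, mul_ite, mul_one, mul_zero, sum_ite_eq',
    mem_univ, if_true] at this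
  omega

theorem not_four (a : α) (s : ℤ) (hs : s = 4 ∨ s = -4) : Pi.single a s ∉ M := fun k => by
  have := h.min _ k fun e => by have := congrFun e a; simp at this; omega
  simp only [Pi.single_apply, ite_pow, ne_eq, OfNat.ofNat_ne_zero, not_false_eq_true, zero_pow, sum_ite_eq',
    mem_univ, if_true] at this
  rcases hs with rfl | rfl <;> omega

omit h in
theorem cast_ne (k : ℤ) : (k : ZMod 2) ≠ 0 ↔ k % 2 = 1 := by
  rw [Ne, (show (k : ZMod 2) = 0 ↔ (2 : ℤ) ∣ k from ZMod.intCast_zmod_eq_zero_iff_dvd k 2)]; omega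

theorem cmin : ∀ w ∈ code M, w ≠ 0 → 8 ≤ hammingNorm w := by
  rintro _ ⟨k, hk, rfl⟩ n
  obtain ⟨p, hp⟩ := Function.ne_iff.1 n
  have hp := (cast_ne _).1 hp
  obtain ⟨s, hs, e⟩ : ∃ s : ℤ, (s = 0 ∨ s = 1) ∧ (2 : ℤ) ∣ ∑ a, (k a / 2 + (Pi.single p s : α → ℤ) a) := by
    refine ⟨(∑ a, k a / 2) % 2, by omega, ?_⟩
    simp only [sum_add_distrib, Pi.single_apply, sum_ite_eq', mem_univ, if_true]; omega
  have := h.min _ (M.sub_mem hk (h.four _ e)) fun e => by
    have := congrFun e p
    simp at this; omega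
  rw [sum_congr rfl (g := fun a => if (k a : ZMod 2) ≠ 0 then (4 : ℤ) else 0) fun a _ => by
    simp only [Pi.sub_apply, Pi.single_apply, cast_ne]
    have : k a % 2 = 0 ∨ k a % 2 = 1 := by omega
    by_cases c : a = p
    · subst c
      rw [if_pos rfl, if_pos hp]
      rcases hs with rfl | rfl
      · rw [show 2 * k a - 4 * (k a / 2 + 0) = 2 by omega]; rfl
      · rw [show 2 * k a - 4 * (k a / 2 + 1) = -2 by omega]; rfl
    · rw [if_neg c]
      split_ifs with d
      · rw [show 2 * k a - 4 * (k a / 2 + 0) = 2 by omega]; rfl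
      · rw [show 2 * k a - 4 * (k a / 2 + 0) = 0 by omega]; rfl, ← sum_filter, sum_const] at this
  simp only [smul_eq_mul, nsmul_eq_mul] at this
  show 8 ≤ #{a | (k a : ZMod 2) ≠ 0}
  omega

theorem corth : ∀ v ∈ code M, ∀ w ∈ code M, ∑ i, v i * w i = 0 := by
  rintro _ ⟨k, hk, rfl⟩ _ ⟨l, hl, rfl⟩
  have := h.dot _ hk _ hl
  rw [sum_congr rfl (g := fun a => 4 * (k a * l a)) fun a _ => by ring, ← mul_sum] at this
  have := (ZMod.intCast_zmod_eq_zero_iff_dvd (∑ a, k a * l a) 2).2 (by push_cast; omega)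
  simpa using this

theorem card_le : ∃ d ≤ 12, Nat.card (code M) = 2 ^ d := by
  let B : LinearMap.BilinForm (ZMod 2) (α → ZMod 2) := Matrix.toBilin' 1
  have hB : ∀ x y, B x y = ∑ i, x i * y i := fun x y => by simp [B, Matrix.toBilin'_apply', dotProduct]
  have nd : B.Nondegenerate := by
    simp [B, Matrix.nondegenerate_toBilin'_iff, Matrix.nondegenerate_iff_det_ne_zero]
  have le : code M ≤ B.orthogonal (code M) := fun w hw v hv => (hB v w).trans (h.corth v hv w hw)
  have := Submodule.finrank_mono le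
  rw [LinearMap.BilinForm.finrank_orthogonal nd, Module.finrank_fintype_fun_eq_card, h.card] at this
  exact ⟨Module.finrank (ZMod 2) (code M), by omega, by rw [Module.natCard_eq_pow_finrank (K := ZMod 2), Nat.card_zmod]⟩

open Classical in
theorem oct_le : 56 * #{s : Finset α | s.card = 8 ∧ H8.ind s ∈ code M} ≤ 42504 := by
  have := card_le_card (show ({s : Finset α | s.card = 8 ∧ H8.ind s ∈ code M} : Finset _).biUnion (powersetCard 5) ⊆
    powersetCard 5 univ from biUnion_subset.2 fun s _ => powersetCard_mono (subset_univ s))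
  rw [card_biUnion, card_powersetCard, card_univ, h.card, sum_congr rfl (g := fun _ => 56) fun s hs => by
    rw [card_powersetCard, (mem_filter.1 hs).2.1]; rfl, sum_const, smul_eq_mul, mul_comm] at this
  · exact this
  intro s hs t ht n
  refine disjoint_left.2 fun u h1 h2 => ?_
  simp only [coe_filter, mem_univ, true_and, Set.mem_setOf_eq] at hs ht
  rw [mem_powersetCard] at h1 h2
  have a := h.cmin _ ((code M).sub_mem hs.2 ht.2) fun e => n (by rw [← H8.supp_ind s, sub_eq_zero.1 e, H8.supp_ind])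
  have b := H8.norm_sub (H8.ind s) (H8.ind t)
  rw [H8.supp_ind, H8.supp_ind, H8.norm_ind, H8.norm_ind] at b
  have := card_le_card (subset_inter h1.1 h2.1)
  omega

omit h in
theorem ext_sign {x y : α → ℤ} {c : ℤ} {a : α} (hc : 0 < c) (hx : x a = 0 ∨ x a = c ∨ x a = -c)
    (hy : y a = 0 ∨ y a = c ∨ y a = -c) (h1 : ({a | x a ≠ 0} : Finset α) = ({a | y a ≠ 0} : Finset α))
    (h2 : x a < 0 ↔ y a < 0) : x a = y a := by
  have := congrArg (a ∈ ·) h1
  simp only [mem_filter, mem_univ, true_and, eq_iff_iff] at this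
  omega

theorem c1 : {x | (x ∈ M ∧ ∑ a, x a ^ 2 = 32) ∧ ∀ a, x a % 4 = 0}.ncard ≤ 1104 := by
  have k : ∀ x : α → ℤ, ∑ a, x a ^ 2 = 32 → (∀ a, x a % 4 = 0) → ∀ a, x a = 0 ∨ x a = 4 ∨ x a = -4 := fun x e f a => by
    have := single_le_sum (f := fun a => x a ^ 2) (fun _ _ => sq_nonneg _) (mem_univ a)
    have := f a
    have : x a ≤ 5 := by nlinarith
    have : -5 ≤ x a := by nlinarith
    omega
  have := Set.ncard_le_ncard_of_injOn (s := {x | (x ∈ M ∧ ∑ a, x a ^ 2 = 32) ∧ ∀ a, x a % 4 = 0})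
    (t := (((powersetCard 2 (univ : Finset α)).sigma fun s => s.powerset : Finset (Σ _ : Finset α, Finset α)) :
      Set (Σ _ : Finset α, Finset α)))
    (fun x => (⟨({a | x a ≠ 0} : Finset α), ({a | x a < 0} : Finset α)⟩ : Σ _ : Finset α, Finset α)) (fun x hx => by
      refine mem_coe.2 (mem_sigma.2 ⟨mem_powersetCard.2 ⟨subset_univ _, ?_⟩, mem_powerset.2 fun a => ?_⟩)
      · have e := hx.1.2
        rw [sum_congr rfl (g := fun a => if x a ≠ 0 then (16 : ℤ) else 0) fun a _ => by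
          rcases k x hx.1.2 hx.2 a with c | c | c <;> simp [c], ← sum_filter, sum_const] at e
        simp only [nsmul_eq_mul] at e
        show #{a | x a ≠ 0} = 2
        omega
      · simp only [mem_filter, mem_univ, true_and]; omega)
    (fun x hx y hy e => funext fun a => by
      simp only [Sigma.mk.injEq, heq_eq_eq] at e
      exact ext_sign (c := 4) (by norm_num) (k x hx.1.2 hx.2 a) (k y hy.1.2 hy.2 a) e.1
        (by simpa using congrArg (a ∈ ·) e.2)) (finite_toSet _)
  rw [Set.ncard_coe_finset, card_sigma, sum_congr rfl (g := fun _ => 4) fun s hs => by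
    rw [card_powerset, (mem_powersetCard.1 hs).2]; rfl, sum_const, card_powersetCard, card_univ, h.card] at this
  exact this

theorem c2 : {x | (x ∈ M ∧ ∑ a, x a ^ 2 = 32) ∧ (∀ a, x a % 2 = 0) ∧ ∃ a, x a % 4 ≠ 0}.ncard ≤ 97152 := by
  classical
  have k : ∀ x ∈ {x | (x ∈ M ∧ ∑ a, x a ^ 2 = 32) ∧ (∀ a, x a % 2 = 0) ∧ ∃ a, x a % 4 ≠ 0},
      (∀ a, x a = 0 ∨ x a = 2 ∨ x a = -2) ∧ #{a | x a ≠ 0} = 8 ∧ H8.ind {a | x a ≠ 0} ∈ code M := by
    rintro x ⟨⟨m, e⟩, f, p, hp⟩
    have w : (fun a => ((x a / 2 : ℤ) : ZMod 2)) ∈ code M :=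
      ⟨fun a => x a / 2, by convert m using 1; funext a; have := f a; beta_reduce; omega, rfl⟩
    have c := h.cmin _ w (Function.ne_iff.2 ⟨p, (cast_ne _).2 (by have := f p; omega)⟩)
    have le : ∀ a ∈ univ, (if ((x a / 2 : ℤ) : ZMod 2) ≠ 0 then (4 : ℤ) else 0) ≤ x a ^ 2 := fun a _ => by
      split_ifs with d
      · rw [cast_ne] at d
        have := f a
        rcases (show 2 ≤ x a ∨ x a ≤ -2 by omega) with g | g <;> nlinarith
      · positivity
    have s : ∑ a, (if ((x a / 2 : ℤ) : ZMod 2) ≠ 0 then (4 : ℤ) else 0) =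
        4 * hammingNorm fun a => ((x a / 2 : ℤ) : ZMod 2) := by
      rw [← sum_filter, sum_const, nsmul_eq_mul, mul_comm]; rfl
    have l := sum_le_sum le
    have q := (sum_eq_sum_iff_of_le le).1 (by omega)
    have r : ∀ a, (x a = 0 ∧ ¬ ((x a / 2 : ℤ) : ZMod 2) ≠ 0) ∨ ((x a = 2 ∨ x a = -2) ∧ ((x a / 2 : ℤ) : ZMod 2) ≠ 0) :=
      fun a => by
        have := q a (mem_univ a)
        split_ifs at this with d
        · exact Or.inr ⟨by
            have : (x a - 2) * (x a + 2) = 0 := by linarith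
            rcases mul_eq_zero.1 this with g | g <;> omega, d⟩
        · exact Or.inl ⟨pow_eq_zero_iff (two_ne_zero) |>.1 this.symm, d⟩
    have e1 : ({a | x a ≠ 0} : Finset α) = support₂ fun a => ((x a / 2 : ℤ) : ZMod 2) := by
      ext a
      simp only [support₂, mem_filter, mem_univ, true_and]
      rcases r a with ⟨g, d⟩ | ⟨g, d⟩
      · exact iff_of_false (fun n => n g) d
      · exact iff_of_true (by omega) d
    refine ⟨fun a => (r a).imp And.left And.left, ?_, by rw [e1, H8.ind_supp]; exact w⟩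
    rw [e1, ← H7.hammingNorm_eq]; omega
  obtain ⟨a0⟩ : Nonempty α := Fintype.card_pos_iff.1 (by rw [h.card]; norm_num)
  obtain ⟨p, hp⟩ : ∃ p : Finset α → α, ∀ s, s.card = 8 → p s ∈ s :=
    ⟨fun s => if k : s.Nonempty then k.choose else a0, fun s e => by
      have k : s.Nonempty := card_pos.1 (by omega)
      simp only [dif_pos k]; exact k.choose_spec⟩
  have := Set.ncard_le_ncard_of_injOn (s := {x | (x ∈ M ∧ ∑ a, x a ^ 2 = 32) ∧ (∀ a, x a % 2 = 0) ∧ ∃ a, x a % 4 ≠ 0})
    (t := ((({s : Finset α | s.card = 8 ∧ H8.ind s ∈ code M} : Finset _).sigma fun s => (s.erase (p s)).powerset :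
      Finset (Σ _ : Finset α, Finset α)) : Set (Σ _ : Finset α, Finset α)))
    (fun x => (⟨({a | x a ≠ 0} : Finset α), ({a | x a < 0} : Finset α).erase (p {a | x a ≠ 0})⟩ : Σ _ : Finset α, Finset α)) (fun x hx => by
      refine mem_coe.2 (mem_sigma.2 ⟨mem_filter.2 ⟨mem_univ _, (k x hx).2⟩, mem_powerset.2 (erase_subset_erase _
        fun a => ?_)⟩)
      simp only [mem_filter, mem_univ, true_and]; omega)
    (fun x hx y hy e => by
      simp only [Sigma.mk.injEq, heq_eq_eq] at e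
      obtain ⟨e1, e2⟩ := e
      rw [← e1] at e2
      have o : ∀ a, a ≠ p {a | x a ≠ 0} → x a = y a := fun a n =>
        ext_sign (c := 2) (by norm_num) ((k x hx).1 a) ((k y hy).1 a) e1 (by simpa [n] using congrArg (a ∈ ·) e2)
      have m1 := hp _ (k x hx).2.1
      generalize p {a | x a ≠ 0} = b at o m1
      have m2 := e1 ▸ m1
      simp only [mem_filter, mem_univ, true_and] at m1 m2
      by_contra n
      refine h.not_four b (x b - y b) ?_ ?_
      · have : x b ≠ y b := fun c => n (funext fun a => by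
          by_cases d : a = b
          · rw [d, c]
          · exact o a d)
        have := (k x hx).1 b
        have := (k y hy).1 b
        omega
      · convert M.sub_mem hx.1.1 hy.1.1 using 1
        funext a
        by_cases d : a = b
        · subst d; simp
        · simp [d, o a d]) (finite_toSet _)
  rw [Set.ncard_coe_finset, card_sigma, sum_congr rfl (g := fun _ => 128) fun s hs => by
    rw [card_powerset, card_erase_of_mem (hp s (mem_filter.1 hs).2.1), (mem_filter.1 hs).2.1]; rfl,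
    sum_const, smul_eq_mul] at this
  have l := h.oct_le
  refine this.trans ?_
  generalize #{s : Finset α | s.card = 8 ∧ H8.ind s ∈ code M} = n at l ⊢
  omega

theorem c3 {x0 : α → ℤ} (h0 : x0 ∈ M) (o0 : ∀ a, x0 a % 2 = 1) :
    {x | (x ∈ M ∧ ∑ a, x a ^ 2 = 32) ∧ ∀ a, x a % 2 = 1}.ncard ≤ 24 * Nat.card (code M) := by
  have k : ∀ x : α → ℤ, ∃ p, ∑ a, x a ^ 2 = 32 → (∀ a, x a % 2 = 1) →
      (x p = 3 ∨ x p = -3) ∧ ∀ a, a ≠ p → x a = 1 ∨ x a = -1 := fun x => by
    by_cases e : ∑ a, x a ^ 2 = 32 ∧ ∀ a, x a % 2 = 1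
    swap
    · obtain ⟨a0⟩ : Nonempty α := Fintype.card_pos_iff.1 (by rw [h.card]; norm_num)
      exact ⟨a0, fun a b => absurd ⟨a, b⟩ e⟩
    obtain ⟨e, f⟩ := e
    have l1 : ∀ a, 1 ≤ x a ^ 2 := fun a => by
      have := f a
      rcases (show 1 ≤ x a ∨ x a ≤ -1 by omega) with g | g <;> nlinarith
    obtain ⟨p, hp⟩ : ∃ p, x p ^ 2 ≠ 1 := by
      by_contra n
      push Not at n
      simp [n, h.card] at e
    have l9 : 9 ≤ x p ^ 2 := by
      have := f p
      rcases (show 3 ≤ x p ∨ x p ≤ -3 ∨ x p = 1 ∨ x p = -1 by omega) with g | g | g | g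
      · nlinarith
      · nlinarith
      · exact absurd (by rw [g]; rfl) hp
      · exact absurd (by rw [g]; rfl) hp
    have le : ∀ a ∈ univ, 1 + (Pi.single p 8 : α → ℤ) a ≤ x a ^ 2 := fun a _ => by
      by_cases c : a = p
      · subst c; simpa using l9
      · simpa [c] using l1 a
    have q := (sum_eq_sum_iff_of_le le).1 (by simp [sum_add_distrib, h.card, e])
    refine ⟨p, fun _ _ => ⟨?_, fun a c => ?_⟩⟩
    · have := q p (mem_univ _)
      simp only [Pi.single_eq_same] at this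
      have : (x p - 3) * (x p + 3) = 0 := by linarith
      rcases mul_eq_zero.1 this with g | g <;> omega
    · have := q a (mem_univ _)
      simp only [Pi.single_eq_of_ne c] at this
      have : (x a - 1) * (x a + 1) = 0 := by linarith
      rcases mul_eq_zero.1 this with g | g <;> omega
  choose P hP using k
  have := Set.ncard_le_ncard_of_injOn (s := {x | (x ∈ M ∧ ∑ a, x a ^ 2 = 32) ∧ ∀ a, x a % 2 = 1})
    (t := Set.univ ×ˢ (code M : Set (α → ZMod 2)))
    (fun x => (P x, fun a => (((x a - x0 a) / 2 : ℤ) : ZMod 2))) (fun x hx => ⟨trivial, fun a => (x a - x0 a) / 2, by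
      convert M.sub_mem hx.1.1 h0 using 1
      funext a
      have := hx.2 a
      have := o0 a
      simp only [Pi.sub_apply]; omega, rfl⟩)
    (fun x hx y hy e => funext fun a => by
      simp only [Prod.mk.injEq] at e
      have c := (ZMod.intCast_eq_intCast_iff' _ _ 2).1 (congrFun e.2 a)
      have := o0 a
      obtain ⟨p1, p2⟩ := hP x hx.1.2 hx.2
      obtain ⟨q1, q2⟩ := hP y hy.1.2 hy.2
      rw [← e.1] at q1 q2
      push_cast at c
      by_cases d : a = P x
      · subst d; omega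
      · have := p2 a d
        have := q2 a d
        omega) (Set.toFinite _)
  rwa [Set.ncard_prod, Set.ncard_univ, Nat.card_eq_fintype_card, h.card, ← Nat.card_coe_set_eq] at this

theorem full : Nat.card (code M) = 4096 ∧ ∃ x ∈ M, ∀ a, x a % 2 = 1 := by
  obtain ⟨a0⟩ : Nonempty α := Fintype.card_pos_iff.1 (by rw [h.card]; norm_num)
  have fin : {x | x ∈ M ∧ ∑ a, x a ^ 2 = 32}.Finite := Set.finite_of_ncard_ne_zero (by rw [h.cnt]; norm_num)
  have sub : {x | x ∈ M ∧ ∑ a, x a ^ 2 = 32} ⊆ ({x | (x ∈ M ∧ ∑ a, x a ^ 2 = 32) ∧ ∀ a, x a % 4 = 0} ∪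
      {x | (x ∈ M ∧ ∑ a, x a ^ 2 = 32) ∧ (∀ a, x a % 2 = 0) ∧ ∃ a, x a % 4 ≠ 0}) ∪
      {x | (x ∈ M ∧ ∑ a, x a ^ 2 = 32) ∧ ∀ a, x a % 2 = 1} := fun x hx => by
    by_cases c : x a0 % 2 = 1
    · exact Or.inr ⟨hx, fun a => (h.par hx.1 a a0).trans c⟩
    by_cases d : ∀ a, x a % 4 = 0
    · exact Or.inl (Or.inl ⟨hx, d⟩)
    · exact Or.inl (Or.inr ⟨hx, fun a => (h.par hx.1 a a0).trans (by omega), not_forall.1 d⟩)
  have l := (Set.ncard_le_ncard sub (((fin.subset fun _ h => h.1).union (fin.subset fun _ h => h.1)).union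
    (fin.subset fun _ h => h.1))).trans ((Set.ncard_union_le _ _).trans (Nat.add_le_add_right (Set.ncard_union_le _ _) _))
  have a := h.c1
  have b := h.c2
  rw [h.cnt] at l
  obtain ⟨x0, ⟨h0, -⟩, o0⟩ := Set.nonempty_of_ncard_ne_zero
    (s := {x | (x ∈ M ∧ ∑ a, x a ^ 2 = 32) ∧ ∀ a, x a % 2 = 1}) (by omega)
  have c := h.c3 h0 o0
  obtain ⟨d, hd, e⟩ := h.card_le
  refine ⟨?_, x0, h0, o0⟩
  rcases hd.lt_or_eq with k | rfl
  · have := Nat.pow_le_pow_right (show 0 < 2 by norm_num) (show d ≤ 11 by omega)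
    omega
  · exact e

omit h in
theorem eqL {N : AddSubgroup (GolayPt → ℤ)} (dot : ∀ x ∈ N, ∀ y ∈ N, (8 : ℤ) ∣ ∑ a, x a * y a)
    (ev : ∀ x ∈ N, (16 : ℤ) ∣ ∑ a, x a ^ 2) (four : ∀ m : GolayPt → ℤ, (2 : ℤ) ∣ ∑ a, m a → (fun a => 4 * m a) ∈ N)
    (par : ∀ x ∈ N, ∀ a b, x a % 2 = x b % 2) (hc : ∀ w, w ∈ golayCode ↔ w ∈ code N) {y0 : GolayPt → ℤ} (m0 : y0 ∈ N)
    (h0 : ∀ p, y0 p % 4 = 1) : N = leechLattice := by
  have s8 : ∀ y ∈ N, (∀ p, y p % 2 = 0) → (8 : ℤ) ∣ ∑ p, y p := fun y hy f => by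
    have := dot y hy y0 m0
    rw [sum_congr rfl (g := fun p => y p + 8 * (y p / 2 * (y0 p / 4))) fun p _ => by
      obtain ⟨a, ha⟩ : ∃ a, y p = 2 * a := ⟨y p / 2, by have := f p; omega⟩
      obtain ⟨b, hb⟩ : ∃ b, y0 p = 4 * b + 1 := ⟨y0 p / 4, by have := h0 p; omega⟩
      rw [show y p / 2 = a by omega, show y0 p / 4 = b by omega, ha, hb]; ring, sum_add_distrib, ← mul_sum] at this
    omega
  have E : ∀ y ∈ N, (∀ p, y p % 2 = 0) → y ∈ leechLattice := fun y hy f => by
    have w := H7.support_mem_iff.2 ((hc fun a => ((y a / 2 : ℤ) : ZMod 2)).2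
      ⟨fun a => y a / 2, by convert hy using 1; funext a; have := f a; beta_reduce; omega, rfl⟩)
    refine H8.Le.mem_iff'.2 ⟨0, Or.inl rfl, _, w, fun i => ?_, by have := s8 y hy f; omega⟩
    simp only [support₂, mem_filter, mem_univ, true_and, cast_ne]
    have := f i
    split_ifs <;> omega
  have O : y0 ∈ leechLattice := H8.Le.mem_of_four 1 1 rfl h0 (by
    have := ev y0 m0
    rw [sum_congr rfl (g := fun p => 2 * y0 p - 1 + 16 * (y0 p / 4) ^ 2) fun p _ => by
      obtain ⟨b, hb⟩ : ∃ b, y0 p = 4 * b + 1 := ⟨y0 p / 4, by have := h0 p; omega⟩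
      rw [show y0 p / 4 = b by omega, hb]; ring, sum_add_distrib, sum_sub_distrib, ← mul_sum, ← mul_sum,
      sum_const, H8.Le.card_pt'] at this
    simp only [nsmul_eq_mul, Int.ModEq] at this ⊢
    omega)
  have E' : ∀ y ∈ leechLattice, y none % 2 = 0 → y ∈ N := fun y hy f => by
    obtain ⟨m, hm, _, ⟨w, hw, rfl⟩, h1, h2⟩ := H8.Le.mem_iff'.1 hy
    obtain rfl : m = 0 := by have := h1 none; split_ifs at this <;> omega
    obtain ⟨k, hk, rfl⟩ := (hc w).1 hw
    have a := s8 _ hk fun p => by omega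
    have e : y = (fun a => 2 * k a) + fun a => 4 * ((y a - 2 * k a) / 4) := funext fun p => by
      have := h1 p
      simp only [support₂, mem_filter, mem_univ, true_and, cast_ne] at this
      simp only [Pi.add_apply]
      split_ifs at this <;> omega
    have b := congrArg (fun y => ∑ p, y p) e
    simp only [Pi.add_apply, sum_add_distrib] at b
    rw [← mul_sum _ _ 4] at b
    rw [e]
    exact N.add_mem hk (four _ (by omega))
  refine le_antisymm (fun y hy => ?_) fun y hy => ?_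
  · by_cases c : y none % 2 = 0
    · exact E y hy fun p => (par y hy p none).trans c
    · simpa using leechLattice.add_mem (E _ (N.sub_mem hy m0) fun p => by
        have := par y hy p none
        have := h0 p
        simp only [Pi.sub_apply]; omega) O
  · by_cases c : y none % 2 = 0
    · exact E' y hy c
    · simpa using N.add_mem (E' _ (leechLattice.sub_mem hy O) (by
        have := h0 none
        simp only [Pi.sub_apply]; omega)) m0

theorem main : ∃ T : (GolayPt → ℤ) ≃+ (α → ℤ), (∀ y, ∑ a, T y a ^ 2 = sqNorm y) ∧ ∀ y, y ∈ leechLattice ↔ T y ∈ M := by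
  obtain ⟨hc, x0, m0, o0⟩ := h.full
  obtain ⟨-, e, he⟩ := H8.golay_uq h.card hc h.cmin h.corth
  obtain ⟨ε, h1, h2⟩ : ∃ ε : α → ℤ, (∀ a, ε a = 1 ∨ ε a = -1) ∧ ∀ a, ε a * x0 a % 4 = 1 :=
    ⟨fun a => if x0 a % 4 = 1 then 1 else -1, fun a => by beta_reduce; split_ifs <;> simp, fun a => by
      have := o0 a
      beta_reduce
      split_ifs <;> omega⟩
  have h3 : ∀ a t, ε a * (ε a * t) = t := fun a t => by rcases h1 a with c | c <;> simp [c]
  let T : (GolayPt → ℤ) ≃+ (α → ℤ) :=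
    { toFun := fun y a => ε a * y (e a)
      invFun := fun x p => ε (e.symm p) * x (e.symm p)
      left_inv := fun y => funext fun p => by simp [h3]
      right_inv := fun x => funext fun a => by simp [h3]
      map_add' := fun x y => funext fun a => by simp [mul_add] }
  have hT : ∀ y a, T y a = ε a * y (e a) := fun _ _ => rfl
  have dt : ∀ x y, ∑ a, T x a * T y a = ∑ p, x p * y p := fun x y => by
    rw [← Equiv.sum_comp e]
    exact sum_congr rfl fun a _ => by rw [hT, hT, mul_mul_mul_comm, mul_assoc, h3]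
  have nm : ∀ y, ∑ a, T y a ^ 2 = ∑ p, y p ^ 2 := fun y => by simpa only [sq] using dt y y
  have cs : ∀ a (t : ℤ), ((ε a * t : ℤ) : ZMod 2) = t := fun a t => by
    rcases h1 a with c | c <;> simp [c, CharTwo.neg_eq]
  have := eqL (N := M.comap T.toAddMonoidHom) (fun x hx y hy => dt x y ▸ h.dot _ hx _ hy)
    (fun x hx => nm x ▸ h.ev _ hx) (fun m hm => by
      have := h.four (T m) ((ZMod.intCast_zmod_eq_zero_iff_dvd _ 2).1 (by
        rw [Int.cast_sum, sum_congr rfl fun a _ => show ((T m a : ℤ) : ZMod 2) = m (e a) from cs a _, Equiv.sum_comp e fun p => (m p : ZMod 2), ← Int.cast_sum]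
        exact (ZMod.intCast_zmod_eq_zero_iff_dvd _ 2).2 hm))
      show T _ ∈ M
      convert this using 1
      funext a; rw [hT, hT]; ring) (fun x hx a b => by
      have := h.par hx (e.symm a) (e.symm b)
      change ε _ * x (e (e.symm a)) % 2 = ε _ * x (e (e.symm b)) % 2 at this
      rw [e.apply_symm_apply, e.apply_symm_apply] at this
      rcases h1 (e.symm a) with c | c <;> rcases h1 (e.symm b) with d | d <;> rw [c, d] at this <;> omega)
    (fun w => (he w).trans ⟨fun ⟨k, a, b⟩ => ⟨T.symm k, by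
        show T _ ∈ M
        convert a using 1
        funext c
        rw [hT, mul_left_comm, ← hT, T.apply_symm_apply], funext fun p => by
        rw [← e.apply_symm_apply p, congrFun b (e.symm p), ← cs (e.symm p) (T.symm k _), ← hT, T.apply_symm_apply]⟩,
      fun ⟨k, a, b⟩ => ⟨T k, by
        have : T _ ∈ M := a
        convert this using 1
        funext c
        rw [hT, hT, mul_left_comm], funext fun c => by rw [b, hT, cs]⟩⟩) (y0 := T.symm x0)
    (by show T _ ∈ M; rwa [T.apply_symm_apply]) fun p => h2 _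
  exact ⟨T, nm, fun y => by rw [← this]; rfl⟩

end Fr
end H2
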