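import Mathlib

/-! Arithmetic for orders of groups of Lie type. -/

set_option autoImplicit false

namespace H2L

open Finset

theorem le_pow_fact {p f d n N R : ℕ} (hp : p.Prime) (hn : n ≠ 0) (h : d * n = (p ^ f) ^ N * R)
    (hd : d.Coprime (p ^ f)) : (p ^ f) ^ N ≤ p ^ n.factorization p := by
  have h1 : (p ^ f) ^ N ∣ n := (hd.symm.pow_left N).dvd_of_dvd_mul_left (Dvd.intro _ h.symm)
  rw [← pow_mul] at h1 ⊢
  exact Nat.pow_le_pow_right hp.pos ((hp.pow_dvd_iff_le_factorization hn).1 h1)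

/-- conclusion -/
def Gd (p n : ℕ) : Prop := n ^ 3 < p ^ (8 * n.factorization p)

theorem Gd.lt {p n : ℕ} (hp : p.Prime) (h : Gd p n) : n < p ^ (3 * n.factorization p) := by
  refine lt_of_pow_lt_pow_left₀ 3 (Nat.zero_le _) (lt_of_lt_of_le h ?_)
  rw [← pow_mul]
  exact Nat.pow_le_pow_right hp.pos (by omega)

theorem gd_of {p q d n N R E : ℕ} (hp : p.Prime) (hq : ∃ f, q = p ^ f) (hn : n ≠ 0)
    (h : d * n = q ^ N * R) (hd : d.Coprime q) (hd0 : d ≠ 0) (hR : R < q ^ E) (hE : 3 * E ≤ 5 * N) :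
    Gd p n := by
  obtain ⟨f, rfl⟩ := hq
  have h1 := le_pow_fact hp hn h hd
  have hq : 0 < p ^ f := pow_pos hp.pos f
  have h2 : n < (p ^ f) ^ (N + E) := by
    calc n ≤ d * n := Nat.le_mul_of_pos_left _ (Nat.pos_of_ne_zero hd0)
      _ = _ := h
      _ < _ := by rw [pow_add]; exact Nat.mul_lt_mul_of_pos_left hR (pow_pos hq N)
  calc n ^ 3 < ((p ^ f) ^ (N + E)) ^ 3 := Nat.pow_lt_pow_left h2 (by norm_num)
    _ ≤ ((p ^ f) ^ N) ^ 8 := by
      rw [← pow_mul (p ^ f), ← pow_mul (p ^ f)]; exact Nat.pow_le_pow_right hq (by omega)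
    _ ≤ (p ^ n.factorization p) ^ 8 := Nat.pow_le_pow_left h1 8
    _ = _ := by rw [← pow_mul, mul_comm]

theorem char_pow {F : Type*} [Field F] [Fintype F] {p : ℕ} [CharP F p] {q e : ℕ} (he : e ≠ 0)
    (h : Fintype.card F = q ^ e) : (∃ f, q = p ^ f) ∧ 2 ≤ q := by
  obtain ⟨n, hp, hn⟩ := FiniteField.card F p
  refine ⟨?_, ?_⟩
  · obtain ⟨f, -, hf⟩ := (Nat.dvd_prime_pow hp).1 (hn ▸ h ▸ dvd_pow_self q he : q ∣ p ^ (n : ℕ))
    exact ⟨f, hf⟩
  · have := Fintype.one_lt_card (α := F)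
    by_contra hc
    have : q ^ e ≤ 1 := pow_le_one₀ (Nat.zero_le _) (by omega)
    omega

theorem cop_sub {q e : ℕ} (hq : 2 ≤ q) (he : e ≠ 0) : (q ^ e - 1).Coprime q := by
  have : 1 ≤ q ^ e := Nat.one_le_pow _ _ (by omega)
  refine Nat.Coprime.coprime_dvd_right (dvd_pow_self q he) ?_
  exact (Nat.coprime_self_sub_left this).2 (Nat.coprime_one_left _)

theorem cop_add {q e : ℕ} (he : e ≠ 0) : (q ^ e + 1).Coprime q := by
  refine Nat.Coprime.coprime_dvd_right (dvd_pow_self q he) ?_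
  simp

theorem sub_lt {q : ℕ} (hq : 2 ≤ q) (e : ℕ) : q ^ e - 1 < q ^ e :=
  Nat.sub_lt (pow_pos (by omega) e) one_pos

theorem add_le {q : ℕ} (hq : 2 ≤ q) (e : ℕ) : q ^ e + 1 ≤ q ^ (e + 1) := by
  have : 1 ≤ q ^ e := Nat.one_le_pow _ _ (by omega)
  rw [pow_succ]; nlinarith

theorem prod_sp {q : ℕ} (hq : 2 ≤ q) (m : ℕ) :
    ∏ i ∈ range m, (q ^ (2 * (i + 1)) - 1) ≤ q ^ (m * (m + 1)) := by
  induction m with
  | zero => simp
  | succ m ih =>
    rw [prod_range_succ, show (m + 1) * (m + 1 + 1) = m * (m + 1) + 2 * (m + 1) by ring, pow_add]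
    exact Nat.mul_le_mul ih (sub_lt hq _).le

theorem prod_sp_lt {q : ℕ} (hq : 2 ≤ q) {m : ℕ} (hm : 1 ≤ m) :
    ∏ i ∈ range m, (q ^ (2 * (i + 1)) - 1) < q ^ (m * (m + 1)) := by
  obtain ⟨m, rfl⟩ := Nat.exists_eq_add_of_le' hm
  rw [prod_range_succ, show (m + 1) * (m + 1 + 1) = m * (m + 1) + 2 * (m + 1) by ring, pow_add]
  exact Nat.mul_lt_mul_of_le_of_lt (prod_sp hq m) (sub_lt hq _) (pow_pos (by omega) _)

/-- triangular numbers -/
def tri : ℕ → ℕ
  | 0 => 0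
  | n + 1 => tri n + n

theorem two_tri (n : ℕ) : 2 * tri n + n = n * n := by
  induction n with
  | zero => rfl
  | succ n ih => simp only [tri]; nlinarith

theorem tri_eq (n : ℕ) : n * (n - 1) / 2 = tri n := by
  have := two_tri n
  have h : n * (n - 1) = 2 * tri n := by
    rw [Nat.mul_sub_one]; omega
  omega

theorem prod_gl (q n : ℕ) : ∏ i : Fin n, (q ^ n - q ^ (i : ℕ)) =
    q ^ tri n * ∏ i ∈ range n, (q ^ (i + 1) - 1) := by
  induction n with
  | zero => simp [tri]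
  | succ n ih =>
    rw [Fin.prod_univ_succ, prod_range_succ]
    have : ∀ i : Fin n, q ^ (n + 1) - q ^ ((i.succ : Fin (n + 1)) : ℕ) = q * (q ^ n - q ^ (i : ℕ)) :=
      fun i => by rw [Fin.val_succ, Nat.mul_sub, pow_succ', pow_succ']
    rw [prod_congr rfl fun i _ => this i, prod_mul_distrib, ih, prod_const, card_univ, Fintype.card_fin,
      tri, pow_add q (tri n), Fin.val_zero, pow_zero]
    ring

theorem prod_sl {q : ℕ} (hq : 2 ≤ q) (n : ℕ) : ∃ R, ∏ i ∈ range (n + 2), (q ^ (i + 1) - 1) =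
    (q - 1) * R ∧ R < q ^ (tri (n + 2) + n + 1) ∧ R.Coprime q := by
  induction n with
  | zero => exact ⟨q ^ 2 - 1, by simp [prod_range_succ], sub_lt hq _, cop_sub hq (by simp)⟩
  | succ n ih =>
    obtain ⟨R, h1, h2, h3⟩ := ih
    refine ⟨R * (q ^ (n + 3) - 1), by rw [prod_range_succ, h1, mul_assoc], ?_,
      h3.mul_left (cop_sub hq (by simp))⟩
    rw [show tri (n + 1 + 2) + (n + 1) + 1 = tri (n + 2) + n + 1 + (n + 3) by simp only [tri]; ring,
      pow_add _ _ (n + 3)]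
    exact Nat.mul_lt_mul'' h2 (sub_lt hq _)

theorem pair_lt {q : ℕ} (hq : 2 ≤ q) (a : ℕ) : (q ^ a - 1) * (q ^ (a + 1) + 1) < q ^ (a + (a + 1)) := by
  have h1 : 1 ≤ q ^ a := Nat.one_le_pow _ _ (by omega)
  have h2 : q ^ a ≤ q ^ (a + 1) := Nat.pow_le_pow_right (by omega) (by omega)
  rw [pow_add q a (a + 1)]
  obtain ⟨x, hx⟩ := Nat.exists_eq_add_of_le h1
  rw [hx] at h2 ⊢
  generalize q ^ (a + 1) = y at h2 ⊢
  rw [add_tsub_cancel_left]
  nlinarith

theorem prod_su {q : ℕ} (hq : 2 ≤ q) (n : ℕ) : ∃ R,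
    ∏ i ∈ range (n + 2), (if Even i then q ^ (i + 1) + 1 else q ^ (i + 1) - 1) =
    (q + 1) * R ∧ R < q ^ (tri (n + 2) + n + 1) := by
  have k : ∀ j, ∃ R, ∏ i ∈ range (2 * j + 1), (if Even i then q ^ (i + 1) + 1 else q ^ (i + 1) - 1) =
      (q + 1) * R ∧ R ≤ q ^ (tri (2 * j + 1) + 2 * j) := by
    intro j
    induction j with
    | zero => exact ⟨1, by simp, by simp [tri]⟩
    | succ j ih =>
      obtain ⟨R, h1, h2⟩ := ih
      refine ⟨R * ((q ^ (2 * j + 2) - 1) * (q ^ (2 * j + 2 + 1) + 1)), ?_, ?_⟩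
      · rw [show 2 * (j + 1) + 1 = 2 * j + 1 + 1 + 1 by ring, prod_range_succ, prod_range_succ, h1,
          if_neg (by simp [parity_simps]), if_pos (by simp [parity_simps])]
        ring
      · rw [show tri (2 * (j + 1) + 1) + 2 * (j + 1) = tri (2 * j + 1) + 2 * j +
          (2 * j + 2 + (2 * j + 2 + 1)) by
            rw [show 2 * (j + 1) + 1 = 2 * j + 1 + 1 + 1 by ring]; simp only [tri]; ring, pow_add _ _ (_ + _)]
        exact Nat.mul_le_mul h2 (pair_lt hq _).le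
  obtain ⟨j, rfl | rfl⟩ := Nat.even_or_odd' n
  · obtain ⟨R, h1, h2⟩ := k j
    refine ⟨R * (q ^ (2 * j + 2) - 1), ?_, ?_⟩
    · rw [prod_range_succ, h1, if_neg (by simp [parity_simps])]; ring
    · rw [show tri (2 * j + 2) + 2 * j + 1 = tri (2 * j + 1) + 2 * j + (2 * j + 2) by
        simp only [tri]; ring, pow_add _ _ (_ + _)]
      exact Nat.mul_lt_mul_of_le_of_lt h2 (sub_lt hq _) (pow_pos (by omega) _)
  · obtain ⟨R, h1, h2⟩ := k j
    refine ⟨R * ((q ^ (2 * j + 2) - 1) * (q ^ (2 * j + 2 + 1) + 1)), ?_, ?_⟩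
    · rw [prod_range_succ, prod_range_succ, h1,
          if_neg (by simp [parity_simps]), if_pos (by simp [parity_simps])]
      ring
    · rw [show tri (2 * j + 1 + 2) + (2 * j + 1) + 1 = tri (2 * j + 1) + 2 * j +
          (2 * j + 2 + (2 * j + 2 + 1)) by simp only [tri]; ring, pow_add _ _ (_ + _)]
      exact Nat.mul_lt_mul_of_le_of_lt h2 (pair_lt hq _) (pow_pos (by omega) _)

end H2L
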