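import Cfsg.Agent.S1609
import Cfsg.Agent.S0381
import Cfsg.Agent.H7.M24

/-! H2.MIdx: subgroups of small index in M24, tools -/

set_option autoImplicit false
open scoped Pointwise
open Cfsg MulAction Cfsg.Agent.S1609

namespace H2.MIdx

theorem eqT {H T : Subgroup M24} (hle : H ≤ T) (h : H.index ∣ T.index) : H = T := by
  have h3 := Nat.dvd_antisymm h (Subgroup.index_dvd_of_le hle)
  have h4 := Subgroup.relIndex_mul_index hle
  have h0 : T.index ≠ 0 := Subgroup.index_ne_zero_of_finite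
  rw [h3] at h4
  exact le_antisymm hle (Subgroup.relIndex_eq_one.1 (Nat.eq_of_mul_eq_mul_right (Nat.pos_of_ne_zero h0) (by rw [h4, one_mul])))

theorem idxO {O : Finset GolayPt} (hO : O ∈ octads) : (stabilizer M24 O).index = 759 := by
  rw [index_stabilizer, ← H7.card_octads]
  congr 1
  ext o
  exact ⟨fun ⟨g, h⟩ => h ▸ H7.smul_mem_octads g hO, fun h => H7.octad_trans hO h⟩

theorem idx2 {s : Finset GolayPt} (hs : s.card = 2) : (stabilizer M24 s).index = 276 := by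
  have : orbit M24 s = (Finset.powersetCard 2 (Finset.univ : Finset GolayPt) : Set (Finset GolayPt)) := by
    ext t
    simp only [Finset.mem_coe, Finset.mem_powersetCard, Finset.subset_univ, true_and]
    exact ⟨fun ⟨g, h⟩ => by rw [← h]; simpa using hs, fun h => H7.set_trans (by omega) (hs.trans h.symm)⟩
  rw [index_stabilizer, this, Set.ncard_coe_finset, Finset.card_powersetCard]
  rfl

def Fx (g : M24) : Finset GolayPt := Finset.univ.filter fun a => (g : Equiv.Perm GolayPt) a = a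

theorem mem_Fx {g : M24} {a : GolayPt} : a ∈ Fx g ↔ g • a = a := by
  simp only [Fx, Finset.mem_filter, Finset.mem_univ, true_and]
  rfl

theorem pw {g : M24} {p : ℕ} (hg : orderOf g = p) : (g : Equiv.Perm GolayPt) ^ p = 1 := by
  rw [← hg, ← Subgroup.orderOf_coe]; exact pow_orderOf_eq_one _

theorem fxi (g : M24) (p : ℕ) [Fact p.Prime] (hg : orderOf g = p) (S : Finset GolayPt) (hS : g • S = S) :
    S.card % p = (S ∩ Fx g).card % p := by
  have := fixmodS _ p (pw hg) S fun a ha => by rw [← hS]; exact Finset.smul_mem_smul_finset ha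
  rwa [show (S.filter fun a => (g : Equiv.Perm GolayPt) a = a) = S ∩ Fx g by ext; simp [Fx]] at this

theorem fxc (g : M24) (p : ℕ) [Fact p.Prime] (h5 : 5 ≤ p) (hg : orderOf g = p) :
    24 % p = (Fx g).card % p ∧ (Fx g).card < 6 :=
  ⟨fixmodS _ p (pw hg) Finset.univ fun _ _ => Finset.mem_univ _, fix_lt g p h5 hg⟩

theorem fxs (g : M24) (p : ℕ) [Fact p.Prime] (hg : orderOf g = p) (S : Finset GolayPt) (hS : g • S = S)
    (h : S.card < p) : S ⊆ Fx g := by
  have h1 := fxi g p hg S hS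
  have h2 := Finset.card_le_card (Finset.inter_subset_left (s₁ := S) (s₂ := Fx g))
  rw [Nat.mod_eq_of_lt h, Nat.mod_eq_of_lt (h2.trans_lt h)] at h1
  exact Finset.inter_eq_left.1 (Finset.eq_of_subset_of_card_le Finset.inter_subset_left h1.le)

theorem fixF (g : M24) (p : ℕ) [Fact p.Prime] (hg : orderOf g = p) (A : Finset (Finset GolayPt))
    (hA : ∀ B ∈ A, g • B ∈ A) (h : ∀ B ∈ A, g • B ≠ B) : p ∣ A.card := by
  have h1 : (MulAction.toPermHom M24 (Finset GolayPt) g) ^ p = 1 := by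
    rw [← map_pow, ← hg, pow_orderOf_eq_one, map_one]
  have := fixmodS _ p h1 A hA
  rw [Finset.filter_eq_empty_iff.2 (by exact h), Finset.card_empty] at this
  exact (Nat.modEq_zero_iff_dvd).1 this

theorem exel (K : Subgroup M24) (p : ℕ) [Fact p.Prime] (h : p ∣ Nat.card K) : ∃ g ∈ K, orderOf g = p := by
  obtain ⟨g, hg⟩ := exists_prime_orderOf_dvd_card' (G := K) p h
  exact ⟨g, g.2, (Subgroup.orderOf_coe g).trans hg⟩

/-- the orbit as a finset -/
theorem orb (K : Subgroup M24) (y : GolayPt) : ∃ D : Finset GolayPt, (∀ b, b ∈ D ↔ ∃ g ∈ K, g • y = b) ∧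
    K ≤ stabilizer M24 D ∧ K ≤ stabilizer M24 Dᶜ ∧ Nat.card (K ⊓ stabilizer M24 y : Subgroup M24) * D.card = Nat.card K := by
  classical
  have hO : ∀ b, b ∈ (orbit K y).toFinset ↔ ∃ g ∈ K, g • y = b := fun b => by
    simp only [Set.mem_toFinset, mem_orbit_iff]
    exact ⟨fun ⟨g, h⟩ => ⟨g, g.2, h⟩, fun ⟨g, h1, h⟩ => ⟨⟨g, h1⟩, h⟩⟩
  have hK : K ≤ stabilizer M24 (orbit K y).toFinset := fun g hg => mem_stabilizer_finset'.2 fun b hb => by
    obtain ⟨h, h1, rfl⟩ := (hO b).1 hb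
    exact (hO _).2 ⟨g * h, K.mul_mem hg h1, mul_smul _ _ _⟩
  refine ⟨_, hO, hK, fun g hg => ?_, ?_⟩
  · rw [mem_stabilizer_iff, H7.smul_compl', hK hg]
  · rw [← Set.ncard_eq_toFinset_card', ← index_stabilizer, ← (stabilizer K y).card_mul_index]
    congr 1
    exact Nat.card_congr ⟨fun a => ⟨⟨a.1, a.2.1⟩, a.2.2⟩, fun a => ⟨a.1.1, a.1.2, a.2⟩, fun _ => rfl, fun _ => rfl⟩

structure Blk (H : Subgroup M24) (m : ℕ) (T : GolayPt → Finset GolayPt) : Prop where
  mem : ∀ y, y ∈ T y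
  card : ∀ y, (T y).card = m
  inv : ∀ y, ∀ g ∈ H, g • y = y → g • T y = T y

theorem exBlk {H : Subgroup M24} {x : GolayPt} (ht : ∀ y, ∃ h ∈ H, h • x = y) {T0 : Finset GolayPt} (hx : x ∈ T0)
    (hK : H ⊓ stabilizer M24 x ≤ stabilizer M24 T0) : ∃ T, Blk H T0.card T := by
  choose h h1 h2 using ht
  refine ⟨fun y => h y • T0, fun y => ?_, fun y => Finset.card_smul_finset _ _, fun y g hg e => ?_⟩
  · have := Finset.smul_mem_smul_finset (a := h y) hx
    rwa [h2 y] at this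
  · have : ((h y)⁻¹ * g * h y) • T0 = T0 := hK ⟨H.mul_mem (H.mul_mem (H.inv_mem (h1 y)) hg) (h1 y), by
      show ((h y)⁻¹ * g * h y) • x = x
      rw [mul_smul, mul_smul, h2, e, inv_smul_eq_iff, h2]⟩
    rw [mul_smul, mul_smul, inv_smul_eq_iff] at this
    exact this

theorem exq {H : Subgroup M24} {x : GolayPt} (ht : ∀ y, ∃ h ∈ H, h • x = y) {g : M24} (hg : g ∈ H) (hx : g • x = x)
    (y : GolayPt) : ∃ k ∈ H, k • y = y ∧ orderOf k = orderOf g := by
  obtain ⟨h, h1, rfl⟩ := ht y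
  refine ⟨h * g * h⁻¹, H.mul_mem (H.mul_mem h1 hg) (H.inv_mem h1), by rw [mul_smul, mul_smul, inv_smul_smul, hx], ?_⟩
  exact (MulAut.conj h).orderOf_eq g

theorem Blk.eq {H : Subgroup M24} {m : ℕ} {T : GolayPt → Finset GolayPt} (B : Blk H m T) (q : ℕ) [Fact q.Prime]
    (h6 : 5 ≤ q) (hm : 24 % q = m) (h5 : q = 5 → m = 4) {y : GolayPt} {g : M24} (hg : g ∈ H) (e : g • y = y)
    (ho : orderOf g = q) : T y = Fx g := by
  have h0 : m < q := hm ▸ Nat.mod_lt _ (by omega)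
  obtain ⟨h1, h2⟩ := fxc g q h6 ho
  refine Finset.eq_of_subset_of_card_le (fxs g q ho _ (B.inv y g hg e) (by rw [B.card]; exact h0)) ?_
  rw [B.card]
  rcases h6.eq_or_lt with h | h
  · subst h
    omega
  · rw [Nat.mod_eq_of_lt (a := (Fx g).card) (by omega)] at h1
    omega

theorem Blk.no {H : Subgroup M24} {m : ℕ} {T : GolayPt → Finset GolayPt} (B : Blk H m T) (q p : ℕ) [Fact q.Prime]
    [Fact p.Prime] (h6 : 6 ≤ q) (hm : 24 % q = m) (hq : ∀ y : GolayPt, ∃ k ∈ H, k • y = y ∧ orderOf k = q) (m2 : 2 ≤ m)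
    {g : M24} (hg : g ∈ H) (ho : orderOf g = p) (hp : m < p) (hc : (Fx g).card = m + 1) : False := by
  have u : ∀ y, ∀ w ∈ T y, T w = T y := fun y w hw => by
    obtain ⟨k, k1, k2, k3⟩ := hq y
    have e := B.eq q (by omega) hm (by omega) k1 k2 k3
    rw [e] at hw ⊢
    exact B.eq q (by omega) hm (by omega) k1 (mem_Fx.1 hw) k3
  have s : ∀ y ∈ Fx g, T y ⊆ Fx g := fun y hy => fxs g p ho _ (B.inv y g hg (mem_Fx.1 hy)) (by rw [B.card]; exact hp)
  obtain ⟨a, ha⟩ : (Fx g).Nonempty := Finset.card_pos.1 (by omega)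
  obtain ⟨b, hb, hb'⟩ := Finset.exists_mem_notMem_of_card_lt_card (s := T a) (t := Fx g) (by rw [B.card]; omega)
  have h1 := Finset.card_union_add_card_inter (T a) (T b)
  have h2 := Finset.card_le_card (Finset.union_subset (s a ha) (s b hb))
  rw [B.card, B.card] at h1
  obtain ⟨w, hw⟩ : (T a ∩ T b).Nonempty := Finset.card_pos.1 (by omega)
  obtain ⟨w1, w2⟩ := Finset.mem_inter.1 hw
  exact hb' ((u b w w2).symm.trans (u a w w1) ▸ B.mem b)

theorem setup (H : Subgroup M24) (hodd : ¬ 2 ∣ H.index) : ∃ O ∈ octads,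
    (∀ a ∈ O, ∀ b ∈ O, ∃ g ∈ H, g • O = O ∧ g • a = b) ∧
    ∀ a ∉ O, ∀ b ∉ O, ∃ g ∈ H, (∀ y ∈ O, g • y = y) ∧ g • a = b := by
  classical
  haveI : Fact (Nat.Prime 2) := ⟨Nat.prime_two⟩
  obtain ⟨Q⟩ : Nonempty (Sylow 2 H) := inferInstance
  have hP : IsPGroup 2 ((Q : Subgroup H).map H.subtype) := Q.isPGroup'.map _
  have hi : ¬ 2 ∣ ((Q : Subgroup H).map H.subtype).index := by
    rw [Subgroup.index_map_subtype, Nat.prime_two.dvd_mul]
    exact not_or.2 ⟨Q.not_dvd_index, hodd⟩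
  have hPH : (Q : Subgroup H).map H.subtype ≤ H := Subgroup.map_subtype_le _
  generalize (Q : Subgroup H).map H.subtype = P at hP hi hPH
  have hc : Nat.card (orbit M24 (H7.fs 5279)) = 759 := by
    rw [← idxO H7.oct0_mem, index_stabilizer]; rfl
  obtain ⟨⟨O, hO⟩, hf⟩ := hP.nonempty_fixed_point_of_prime_not_dvd_card (orbit M24 (H7.fs 5279)) (by rw [hc]; norm_num)
  have ho : O ∈ octads := by
    obtain ⟨g, rfl⟩ := hO
    exact H7.smul_mem_octads g H7.oct0_mem
  have hPO : ∀ g ∈ P, g • O = O := fun g hg => congrArg Subtype.val (hf ⟨g, hg⟩)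
  obtain ⟨n16, n2⟩ := Cfsg.Agent.S0381.result O ho
  let N : Subgroup M24 := fixingSubgroup M24 (O : Set GolayPt)
  have hN : ∀ g, g ∈ N ↔ ∀ y ∈ O, g • y = y := fun g => mem_fixingSubgroup_iff _
  have hN2 : IsPGroup 2 N := fun g => ⟨1, Subtype.ext (Subtype.ext (by
    have := n2 g ⟨g.1.2, (mem_fixingSubgroup_iff _).2 ((hN _).1 g.2)⟩
    simpa [pow_two] using this))⟩
  have hNc : Nat.card N = 16 := n16 ▸ Nat.card_congr ⟨fun a => ⟨a.1.1, a.1.2, (mem_fixingSubgroup_iff _).2 ((hN _).1 a.2)⟩,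
    fun a => ⟨⟨a.1, a.2.1⟩, (hN _).2 ((mem_fixingSubgroup_iff _).1 a.2.2)⟩, fun _ => rfl, fun _ => rfl⟩
  have hNP : N ≤ P := by
    have h1 : P ≤ Subgroup.normalizer (N : Set M24) := by
      refine fun g hg => Subgroup.mem_normalizer_fintype fun n hn => (hN _).2 fun y hy => ?_
      have : g⁻¹ • y ∈ O := mem_stabilizer_finset'.1 (hPO _ (P.inv_mem hg)) hy
      rw [mul_smul, mul_smul, (hN n).1 hn _ this, smul_inv_smul]
    have h2 := (hP.toSylow hi).is_maximal' (hP.to_sup_of_normal_right' hN2 h1) le_sup_left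
    exact le_sup_right.trans h2.le
  refine ⟨O, ho, fun a ha b hb => ?_, fun a ha b hb => ?_⟩
  · obtain ⟨D, d1, -, -, d4⟩ := orb P a
    have h1 : 1024 ∣ Nat.card P := by
      have := P.card_mul_index
      rw [H7.card_M24] at this
      exact (Nat.Coprime.pow_left 10 ((Nat.Prime.coprime_iff_not_dvd Nat.prime_two).2 hi)).dvd_of_dvd_mul_right
        (by rw [this]; norm_num)
    obtain ⟨j, hj⟩ := IsPGroup.iff_card.1 (hP.to_le (inf_le_left (b := stabilizer M24 a)))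
    have h2 := Subgroup.card_dvd_of_le (inf_le_right (a := P) (b := stabilizer M24 a))
    rw [Cfsg.Agent.S0376.result a, hj, show 10200960 = 128 * 79695 by norm_num] at h2
    have h3 := Nat.le_of_dvd (by norm_num) ((Nat.Coprime.pow_left j (by norm_num : Nat.Coprime 2 79695)).dvd_of_dvd_mul_right h2)
    have h4 := Nat.le_of_dvd Nat.card_pos h1
    have h5 : D = O := Finset.eq_of_subset_of_card_le (fun c hc => by
      obtain ⟨g, g1, rfl⟩ := (d1 c).1 hc
      exact mem_stabilizer_finset'.1 (hPO g g1) ha) (by rw [ho.2]; rw [hj] at d4; nlinarith)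
    obtain ⟨g, g1, g2⟩ := (d1 b).1 (h5 ▸ hb)
    exact ⟨g, hPH g1, hPO g g1, g2⟩
  · obtain ⟨D, d1, -, -, d4⟩ := orb N a
    have h1 : N ⊓ stabilizer M24 a = ⊥ := by
      refine eq_bot_iff.2 fun g hg => Subtype.ext ?_
      exact (Cfsg.Agent.S1554.result O ho a ha).1.le ⟨⟨g.2, (mem_fixingSubgroup_iff _).2 ((hN _).1 hg.1)⟩,
        ⟨g.2, hPO g (hNP hg.1)⟩, hg.2⟩
    rw [h1, Subgroup.card_bot, one_mul, hNc] at d4
    have h5 : D = Oᶜ := Finset.eq_of_subset_of_card_le (fun c hc => by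
      obtain ⟨g, g1, rfl⟩ := (d1 c).1 hc
      refine Finset.mem_compl.2 fun h => ha ?_
      have := mem_stabilizer_finset'.1 (hPO _ (hNP (N.inv_mem g1))) h
      rwa [inv_smul_smul] at this) (by rw [Finset.card_compl, ho.2, d4]; rfl)
    obtain ⟨g, g1, g2⟩ := (d1 b).1 (h5 ▸ Finset.mem_compl.2 hb)
    exact ⟨g, hPH (hNP g1), (hN g).1 g1, g2⟩

theorem sx_idx {S : Finset (Finset GolayPt)} (hS : S ∈ sextets) : 1771 ∣ (stabilizer M24 S).index := by
  have k : ∀ p : ℕ, p.Prime → 7 ≤ p → p ∣ 244823040 → 24 % p < 4 → p ∣ (stabilizer M24 S).index := fun p hp h7 hd hm => by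
    haveI : Fact p.Prime := ⟨hp⟩
    refine dvd_index _ p (by rw [H7.card_M24]; exact hd) fun g hg ho => ?_
    have h1 := fixF g p ho S (fun B hB => mem_stabilizer_finset'.1 hg hB) fun B hB e => by
      have h2 := Finset.card_le_card (fxs g p ho B e (by rw [hS.2.1 B hB]; omega))
      obtain ⟨h3, h4⟩ := fxc g p (by omega) ho
      rw [Nat.mod_eq_of_lt (a := (Fx g).card) (by omega)] at h3
      rw [hS.2.1 B hB] at h2
      omega
    rw [hS.1] at h1
    have := Nat.le_of_dvd (by norm_num) h1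
    omega
  exact Nat.Coprime.mul_dvd_of_dvd_of_dvd (by norm_num : Nat.Coprime 77 23)
    (Nat.Coprime.mul_dvd_of_dvd_of_dvd (by norm_num : Nat.Coprime 7 11) (k 7 (by norm_num) le_rfl (by norm_num) (by norm_num))
      (k 11 (by norm_num) (by norm_num) (by norm_num) (by norm_num))) (k 23 (by norm_num) (by norm_num) (by norm_num) (by norm_num))

theorem sext {H : Subgroup M24} {T : GolayPt → Finset GolayPt} (B : Blk H 4 T) {x : GolayPt} (ht : ∀ y, ∃ h ∈ H, h • x = y)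
    {g : M24} (hg : g ∈ H) (hx : g • x = x) (ho : orderOf g = 5) {O : Finset GolayPt} (hO : O ∈ octads) (hTO : T x ⊆ O)
    (hP : ∀ b ∈ O, ∃ g ∈ H, g • O = O ∧ g • x = b) : ∃ S ∈ sextets, H ≤ stabilizer M24 S := by
  classical
  haveI : Fact (Nat.Prime 5) := ⟨by norm_num⟩
  have e5 : ∀ {y : GolayPt} {k : M24}, k ∈ H → k • y = y → orderOf k = 5 → T y = Fx k := fun k1 k2 k3 =>
    B.eq 5 le_rfl rfl (fun _ => rfl) k1 k2 k3
  have u : ∀ y, ∀ w ∈ T y, T w = T y := fun y w hw => by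
    obtain ⟨k, k1, k2, k3⟩ := exq ht hg hx y
    have e := e5 k1 k2 (k3.trans ho)
    rw [e] at hw ⊢
    exact e5 k1 (mem_Fx.1 hw) (k3.trans ho)
  have ev : ∀ h ∈ H, ∀ y, h • T y = T (h • y) := fun h hh y => by
    obtain ⟨k, k1, k2, k3⟩ := exq ht hg hx y
    have e := e5 k1 k2 (k3.trans ho)
    have e' := e5 (y := h • y) (H.mul_mem (H.mul_mem hh k1) (H.inv_mem hh))
      (by rw [mul_smul, mul_smul, inv_smul_smul, k2]) (((MulAut.conj h).orderOf_eq k).trans (k3.trans ho))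
    refine Finset.eq_of_subset_of_card_le (fun c hc => ?_) (by rw [Finset.card_smul_finset, B.card, B.card])
    obtain ⟨d, d1, rfl⟩ := Finset.mem_smul_finset.1 hc
    rw [e] at d1
    rw [e', mem_Fx, mul_smul, mul_smul, inv_smul_smul, mem_Fx.1 d1]
  have hS : ∀ h ∈ H, ∀ b ∈ Finset.univ.image T, h • b ∈ Finset.univ.image T := fun h hh b hb => by
    obtain ⟨y, -, rfl⟩ := Finset.mem_image.1 hb
    exact Finset.mem_image.2 ⟨_, Finset.mem_univ _, (ev h hh y).symm⟩
  have c6 : (Finset.univ.image T).card = 6 := by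
    have h1 := Finset.card_eq_sum_card_image T Finset.univ
    rw [Finset.sum_congr rfl (g := fun _ => 4) fun b hb => by
      obtain ⟨y, -, rfl⟩ := Finset.mem_image.1 hb
      rw [← B.card y]
      congr 1
      ext a
      simp only [Finset.mem_filter, Finset.mem_univ, true_and]
      exact ⟨fun h => h ▸ B.mem a, u y a⟩, Finset.sum_const, smul_eq_mul] at h1
    have : (Finset.univ : Finset GolayPt).card = 24 := rfl
    omega
  have hA : ∀ b ∈ (Finset.univ.image T).erase (T x), T x ∪ b ∈ octads := by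
    let A := ((Finset.univ.image T).erase (T x)).filter fun b => T x ∪ b ∈ octads
    have gx : g • T x = T x := B.inv x g hg hx
    have h1 : 5 ∣ A.card := fixF g 5 ho A (fun b hb => by
      obtain ⟨b1, b2⟩ := Finset.mem_filter.1 hb
      obtain ⟨b0, b1⟩ := Finset.mem_erase.1 b1
      refine Finset.mem_filter.2 ⟨Finset.mem_erase.2 ⟨fun h => b0 (smul_left_cancel g (h.trans gx.symm)), hS g hg b b1⟩, ?_⟩
      have := H7.smul_mem_octads g b2
      rwa [Finset.smul_finset_union, gx] at this) fun b hb e => by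
      obtain ⟨b0, b1⟩ := Finset.mem_erase.1 (Finset.mem_filter.1 hb).1
      obtain ⟨y, -, rfl⟩ := Finset.mem_image.1 b1
      have := fxs g 5 ho _ e (by rw [B.card]; norm_num) (B.mem y)
      rw [← e5 hg hx ho] at this
      exact b0 (u x y this)
    obtain ⟨b, hb, hb'⟩ := Finset.exists_mem_notMem_of_card_lt_card (s := T x) (t := O) (by rw [B.card, hO.2]; norm_num)
    have hne : T b ≠ T x := fun h => hb' (h ▸ B.mem b)
    have h2 : T b ∈ A := by
      refine Finset.mem_filter.2 ⟨Finset.mem_erase.2 ⟨hne, Finset.mem_image_of_mem _ (Finset.mem_univ _)⟩, ?_⟩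
      obtain ⟨k, k1, k2, k3⟩ := hP b hb
      have h3 : T b ⊆ O := by
        rw [← k3, ← ev k k1, ← k2]
        exact Finset.smul_finset_subset_smul_finset hTO
      have h4 : Disjoint (T x) (T b) := Finset.disjoint_left.2 fun a a1 a2 => hne ((u b a a2).symm.trans (u x a a1))
      rwa [Finset.eq_of_subset_of_card_le (Finset.union_subset hTO h3)
        (by rw [Finset.card_union_of_disjoint h4, B.card, B.card, hO.2])]
    have h3 := Nat.le_of_dvd (Finset.card_pos.2 ⟨_, h2⟩) h1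
    have h4 : A = (Finset.univ.image T).erase (T x) := Finset.eq_of_subset_of_card_le (Finset.filter_subset _ _) (by
      rw [Finset.card_erase_of_mem (Finset.mem_image_of_mem _ (Finset.mem_univ _)), c6]; exact h3)
    intro b hb
    rw [← h4] at hb
    exact (Finset.mem_filter.1 hb).2
  refine ⟨Finset.univ.image T, ⟨c6, fun t ht => ?_, fun t h1 v h2 hne => ?_⟩, fun h hh => mem_stabilizer_finset'.2 (hS h hh)⟩
  · obtain ⟨y, -, rfl⟩ := Finset.mem_image.1 ht
    exact B.card y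
  · obtain ⟨y, -, rfl⟩ := Finset.mem_image.1 h1
    obtain ⟨h, hh, rfl⟩ := ht y
    have := H7.smul_mem_octads h (hA (h⁻¹ • v) (Finset.mem_erase.2 ⟨fun e => hne (by
      rw [← ev h hh, ← e, smul_inv_smul]), hS _ (H.inv_mem hh) v h2⟩))
    rwa [Finset.smul_finset_union, smul_inv_smul, ev h hh] at this

theorem odd (H : Subgroup M24) (hodd : ¬ 2 ∣ H.index) (h5 : 5 ∣ Nat.card H) (h11 : ¬ 11 ∣ Nat.card H) (h23 : ¬ 23 ∣ Nat.card H) :
    (∃ O ∈ octads, H ≤ stabilizer M24 O) ∨ ∃ S ∈ sextets, H ≤ stabilizer M24 S := by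
  classical
  haveI : Fact (Nat.Prime 5) := ⟨by norm_num⟩
  haveI : Fact (Nat.Prime 7) := ⟨by norm_num⟩
  obtain ⟨O, hO, hP, hN⟩ := setup H hodd
  by_cases hA : H ≤ stabilizer M24 O
  · exact Or.inl ⟨O, hO, hA⟩
  right
  obtain ⟨h0, hh0, hA⟩ := SetLike.not_le_iff_exists.1 hA
  rw [mem_stabilizer_finset'] at hA
  push Not at hA
  obtain ⟨x, hx, hc⟩ := hA
  have ht : ∀ y, ∃ h ∈ H, h • x = y := fun y => by
    by_cases hy : y ∈ O
    · obtain ⟨g, g1, -, g2⟩ := hP x hx y hy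
      exact ⟨g, g1, g2⟩
    · obtain ⟨g, g1, -, g2⟩ := hN _ hc y hy
      exact ⟨g * h0, H.mul_mem g1 hh0, by rw [mul_smul, g2]⟩
  obtain ⟨D0, d1, -, -, d4⟩ := orb H x
  rw [show D0 = Finset.univ from Finset.eq_univ_of_forall fun y => (d1 y).2 (ht y),
    show (Finset.univ : Finset GolayPt).card = 24 from rfl] at d4
  obtain ⟨g, ⟨hg, hgx⟩, ho⟩ := exel (H ⊓ stabilizer M24 x) 5 (by omega)
  obtain ⟨f1, f2⟩ := fxc g 5 le_rfl ho
  obtain ⟨D, e1, -, e3, e4⟩ := orb (H ⊓ stabilizer M24 x) (h0 • x)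
  have hD : Dᶜ ⊆ O := fun a ha => by
    by_contra h
    obtain ⟨k, k1, k2, k3⟩ := hN _ hc a h
    exact Finset.mem_compl.1 ha ((e1 a).2 ⟨k, ⟨k1, k2 x hx⟩, k3⟩)
  have hxD : x ∈ Dᶜ := Finset.mem_compl.2 fun h => by
    obtain ⟨k, ⟨-, k1⟩, k2⟩ := (e1 x).1 h
    exact hc (by rw [smul_left_cancel k (k2.trans (mem_stabilizer_iff.1 k1).symm)]; exact hx)
  have hcD : D.card + Dᶜ.card = 24 := Finset.card_add_card_compl D
  have hpos := Finset.card_pos.2 ⟨x, hxD⟩
  have hdv : D.card ∣ Nat.card H := (Dvd.intro_left _ e4).trans (Dvd.intro _ d4)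
  obtain ⟨T, B⟩ := exBlk ht hxD e3
  by_cases h5' : 5 ≤ Dᶜ.card
  · exfalso
    have hK : H ⊓ stabilizer M24 x ≤ stabilizer M24 O := fun k hk => H7.octad_unique (H7.smul_mem_octads k hO) hO
      (h5'.trans (Finset.card_le_card (Finset.subset_inter (by
        rw [← mem_stabilizer_iff.1 (e3 hk)]; exact Finset.smul_finset_subset_smul_finset hD) hD)))
    have hy : ∀ h ∈ H, ∀ y ∈ h • O, ∀ k ∈ H, k • y = y → k • h • O = h • O := fun h hh y hy k hk e => by
      obtain ⟨z, z1, rfl⟩ := Finset.mem_smul_finset.1 hy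
      obtain ⟨p, p1, p2, rfl⟩ := hP x hx z z1
      have : ((h * p)⁻¹ * k * (h * p)) • O = O := hK ⟨H.mul_mem (H.mul_mem (H.inv_mem (H.mul_mem hh p1)) hk) (H.mul_mem hh p1), by
        show ((h * p)⁻¹ * k * (h * p)) • x = x
        rw [mul_smul, mul_smul, inv_smul_eq_iff, mul_smul, e]⟩
      rwa [mul_smul, mul_smul, inv_smul_eq_iff, mul_smul, p2] at this
    have a1 := fxi g 5 ho O (hK ⟨hg, hgx⟩)
    have a2 := Finset.card_le_card (Finset.inter_subset_right (s₁ := O) (s₂ := Fx g))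
    rw [hO.2] at a1
    obtain ⟨c, c1, c2⟩ := Finset.exists_mem_notMem_of_card_lt_card (s := O ∩ Fx g) (t := Fx g) (by omega)
    have c3 : c ∉ O := fun h => c2 (Finset.mem_inter.2 ⟨h, c1⟩)
    obtain ⟨h, hh, rfl⟩ := ht c
    have hcO : h • x ∈ h • O := Finset.smul_mem_smul_finset hx
    have a3 := fxi g 5 ho (h • O) (hy h hh _ hcO g hg (mem_Fx.1 c1))
    have a4 := Finset.card_le_card (Finset.inter_subset_right (s₁ := h • O) (s₂ := Fx g))
    rw [Finset.card_smul_finset, hO.2] at a3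
    have a5 := Finset.card_union_add_card_inter (O ∩ Fx g) (h • O ∩ Fx g)
    have a6 := Finset.card_le_card (Finset.union_subset (Finset.inter_subset_right (s₁ := O) (s₂ := Fx g))
      (Finset.inter_subset_right (s₁ := h • O) (s₂ := Fx g)))
    obtain ⟨w, hw⟩ : (O ∩ Fx g ∩ (h • O ∩ Fx g)).Nonempty := Finset.card_pos.1 (by omega)
    have w1 := (Finset.mem_inter.1 (Finset.mem_inter.1 hw).1).1
    have w2 := (Finset.mem_inter.1 (Finset.mem_inter.1 hw).2).1
    have a7 : Oᶜ ⊆ h • O := fun b hb => by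
      obtain ⟨k, k1, k2, rfl⟩ := hN _ c3 b (Finset.mem_compl.1 hb)
      rw [← hy h hh w w2 k k1 (k2 w w1)]
      exact Finset.smul_mem_smul_finset hcO
    have a8 := Finset.card_le_card a7
    rw [Finset.card_smul_finset, Finset.card_compl, hO.2] at a8
    exact absurd a8 (by decide)
  · have h34 : Dᶜ.card = 3 ∨ Dᶜ.card = 4 := by
      by_contra hcon
      have : D.card = 22 ∨ D.card = 23 := by omega
      rcases this with h | h <;> rw [h] at hdv
      · exact h11 ((by norm_num : 11 ∣ 22).trans hdv)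
      · exact h23 hdv
    rcases h34 with h | h <;> rw [h] at B
    · exfalso
      obtain ⟨k, ⟨k1, k2⟩, k3⟩ := exel (H ⊓ stabilizer M24 x) 7 (by
        rw [← e4, show D.card = 21 by omega]; exact Dvd.dvd.mul_left (by norm_num) _)
      exact B.no 7 5 (by norm_num) rfl (fun y => k3 ▸ exq ht k1 k2 y) (by norm_num) hg ho (by norm_num) (by omega)
    · refine sext B ht hg hgx ho hO ?_ (hP x hx)
      rw [B.eq 5 le_rfl rfl (fun _ => rfl) hg hgx ho, ← Finset.eq_of_subset_of_card_le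
        (fxs g 5 ho _ (e3 ⟨hg, hgx⟩) (by omega)) (by omega)]
      exact hD

theorem ar1 (n : ℕ) (h : n ≤ 24) (h1 : n % 7 ≤ 3 ∧ n % 11 ≤ 2) (h2 : n ∣ 887040) : n = 1 ∨ n = 2 ∨ n = 22 ∨ n = 24 := by
  interval_cases n <;> simp_all

theorem ar2 (n : ℕ) (h : n ≤ 24) (h1 : (n + 1) % 7 ≤ 3 ∧ (n + 1) % 11 ≤ 2) (h2 : n ∣ 36960) (h3 : n % 11 ≤ 2) : n = 1 ∨ n = 22 := by
  interval_cases n <;> simp_all

theorem duad (H : Subgroup M24) (hH : H.index = 276) : ∃ s : Finset GolayPt, s.card = 2 ∧ H ≤ stabilizer M24 s := by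
  haveI : Fact (Nat.Prime 7) := ⟨by norm_num⟩
  haveI : Fact (Nat.Prime 11) := ⟨by norm_num⟩
  have hc := H.card_mul_index
  rw [hH, H7.card_M24] at hc
  have hc : Nat.card H = 887040 := by omega
  have size : ∀ (K : Subgroup M24), 7 ∣ Nat.card K → 11 ∣ Nat.card K → ∀ S : Finset GolayPt, K ≤ stabilizer M24 S →
      S.card % 7 ≤ 3 ∧ S.card % 11 ≤ 2 := fun K k7 k11 S hS => by
    obtain ⟨g, g1, g2⟩ := exel K 7 k7
    obtain ⟨h, h1, h2⟩ := exel K 11 k11
    obtain ⟨a, f, e1, e2, e3, e4, -⟩ := cnt g 7 (by norm_num) g2 S (hS g1)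
    obtain ⟨b, k, d1, d2, d3, d4, -⟩ := cnt h 11 (by norm_num) h2 S (hS h1)
    omega
  obtain ⟨D, d1, d2, d3, d4⟩ := orb H none
  have hcD : D.card + Dᶜ.card = 24 := Finset.card_add_card_compl D
  have hs := size H (by omega) (by omega) D d2
  have hdv : D.card ∣ 887040 := hc ▸ Dvd.intro_left _ d4
  have hx := Subgroup.card_dvd_of_le (inf_le_right (a := H) (b := stabilizer M24 (none : GolayPt)))
  rw [Cfsg.Agent.S0376.result] at hx
  have hcs : D.card = 1 ∨ D.card = 2 ∨ D.card = 22 ∨ D.card = 24 := ar1 _ (by omega) hs hdv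
  rcases hcs with h | h | h | h
  · rw [h, mul_one, hc] at d4
    rw [d4] at hx
    norm_num at hx
  · exact ⟨D, h, d2⟩
  · exact ⟨Dᶜ, by omega, d3⟩
  exfalso
  have ht : ∀ y, ∃ h ∈ H, h • (none : GolayPt) = y := fun y => (d1 y).1 (by
    rw [Finset.eq_univ_of_card D h]; exact Finset.mem_univ y)
  rw [h, hc] at d4
  have hk : Nat.card (H ⊓ stabilizer M24 (none : GolayPt) : Subgroup M24) = 36960 := by omega
  obtain ⟨E, e1, e2, e3, e4⟩ := orb (H ⊓ stabilizer M24 (none : GolayPt)) (some 0)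
  have hcE : E.card + Eᶜ.card = 24 := Finset.card_add_card_compl E
  have hn : none ∉ E := fun h => by
    obtain ⟨k, ⟨-, k1⟩, k2⟩ := (e1 none).1 h
    exact absurd (smul_left_cancel k (k2.trans (mem_stabilizer_iff.1 k1).symm)) (by simp)
  have e5 : H ⊓ stabilizer M24 (none : GolayPt) ≤ stabilizer M24 (insert none E) := fun g hg => by
    rw [mem_stabilizer_iff, Finset.smul_finset_insert, mem_stabilizer_iff.1 hg.2, mem_stabilizer_iff.1 (e2 hg)]
  have s1 := size _ (by omega) (by omega) _ e5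
  have hi := Finset.card_insert_of_notMem hn
  rw [hi] at s1
  have hdv' : E.card ∣ 36960 := hk ▸ Dvd.intro_left _ e4
  have hcs : E.card = 1 ∨ E.card = 22 := ar2 _ (by omega) s1 hdv' (size _ (by omega) (by omega) _ e2).2
  obtain ⟨T, B⟩ : ∃ T, Blk H 2 T := by
    rcases hcs with h | h
    · have := exBlk ht (Finset.mem_insert_self none E) e5
      rwa [hi, h] at this
    · have := exBlk ht (Finset.mem_compl.2 hn) e3
      rwa [show Eᶜ.card = 2 by omega] at this
  obtain ⟨k, ⟨k1, k2⟩, k3⟩ := exel (H ⊓ stabilizer M24 (none : GolayPt)) 11 (by omega)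
  obtain ⟨g, g1, g2⟩ := exel H 7 (by omega)
  obtain ⟨f1, f2⟩ := fxc g 7 (by norm_num) g2
  exact B.no 11 7 (by norm_num) rfl (fun y => k3 ▸ exq ht k1 k2 y) le_rfl g1 g2 (by norm_num) (by omega)

end H2.MIdx
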