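import Cfsg.Agent.H2.XS4
import Cfsg.Agent.H8.LeCo
import Cfsg.Prelude.Def_MonsterType

/-! H2.Mon: groups of Monster type. `Mon` (the relation between lattice vectors and elements of `Q`), `mon_of`,
`Mon.sq`, `Mon.twist`, `Mon.conj`, `Mon.not32`. -/

set_option autoImplicit false

namespace H2
open Subgroup Cfsg H8.Le

variable {G : Type*} [Group G]

open Classical in
noncomputable def kq (x : G) : ZMod 2 := if x * x = 1 then 0 else 1
open Classical in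
noncomputable def bq (x y : G) : ZMod 2 := if x * y = y * x then 0 else 1

theorem XS.kq_mul {Q : Subgroup G} {z x y : G} (h : XS Q z) (hx : x ∈ Q) (hy : y ∈ Q) :
    kq (x * y) = kq x + kq y + bq x y := by
  have z1 := h.z1
  have e0 : x * y * (x * y) = x * (y * x * y⁻¹) * (y * y) := by group
  have zz : z * z = 1 := h.z2
  by_cases c : x * y = y * x
  · have e : x * y * (x * y) = x * x * (y * y) := by
      rw [e0, ← c]; group
    unfold kq bq
    rw [e, if_pos c]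
    rcases h.sq x hx with a | a <;> rcases h.sq y hy with b | b <;> rw [a, b] <;> simp [z1, zz] <;> decide
  · have e : x * y * (x * y) = x * x * z * (y * y) := by
      rw [e0, h.conj hy hx (Ne.symm c)]; group
    unfold kq bq
    rw [e, if_neg c]
    rcases h.sq x hx with a | a <;> rcases h.sq y hy with b | b <;> rw [a, b] <;> simp [z1, zz] <;> decide

theorem XS.bq_mul {Q : Subgroup G} {z x y c : G} (h : XS Q z) (hx : x ∈ Q) (hy : y ∈ Q) (hc : c ∈ Q) :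
    bq (x * y) c = bq x c + bq y c := by
  have := h.comm_mul_iff' hc hx hy
  by_cases a : x * c = c * x <;> by_cases b : y * c = c * y <;> simp only [a, b, eq_iff_iff, iff_true, iff_false,
    true_iff, false_iff, not_true, not_false_eq_true] at this <;> simp only [bq, this, a, b, if_true, if_false] <;>
    decide

theorem XS.kq_z {Q : Subgroup G} {z x : G} (h : XS Q z) (hx : x ∈ Q) : kq (x * z) = kq x := by
  have : x * z * (x * z) = x * x := by
    rw [show x * z * (x * z) = x * (z * x) * z by group, ← h.zc x hx,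
      show x * (x * z) * z = x * x * (z * z) by group, h.z2, mul_one]
  unfold kq; rw [this]

theorem kq_conj (g x : G) : kq (g * x * g⁻¹) = kq x := by
  have : g * x * g⁻¹ * (g * x * g⁻¹) = 1 ↔ x * x = 1 := by
    rw [show g * x * g⁻¹ * (g * x * g⁻¹) = g * (x * x) * g⁻¹ by group]
    exact conj_eq_one_iff
  unfold kq; rw [propext this]

structure Mon (z : G) (P : Subgroup G) (R : Λ → G → Prop) (π : centralizer ({z} : Set G) →* Spor.Co1) : Prop where
  lx : LX P z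
  card : Nat.card P = 2 ^ 25
  mem : ∀ {v x}, R v x → x ∈ P
  ex1 : ∀ v, ∃ x, R v x
  ex2 : ∀ x ∈ P, ∃ v, R v x
  add : ∀ {v w x y}, R v x → R w y → R (v + w) (x * y)
  fib : ∀ {v x y}, R v x → (R v y ↔ y = x ∨ y = x * z)
  fib2 : ∀ {v w x}, R v x → (R w x ↔ ∃ t, w = v + (t + t))
  sur : Function.Surjective π
  ker : ∀ h, π h = 1 ↔ h.1 ∈ P
  act : ∀ {h : centralizer ({z} : Set G)} {g : Co0} {v x}, (QuotientGroup.mk g : Spor.Co1) = π h → R v x →
    R (g • v) (h.1 * x * h.1⁻¹)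
  ex : ∃ g : G, g * z * g⁻¹ ∈ P ∧ g * z * g⁻¹ ≠ z

theorem mon_of [Finite G] {z : G} {Q : Subgroup (centralizer ({z} : Set G))} [Q.Normal]
    (hS : IsExtraspecialCentralizerSetting z Q 12) {e : centralizer ({z} : Set G) ⧸ Q ≃* Spor.Co1}
    {ψ : Λ → Q ⧸ center Q} (hψ : IsLeechModTwoIso Q e ψ) :
    Mon z (Q.map (centralizer ({z} : Set G)).subtype) (fun v x => ∃ q : Q, q.1.1 = x ∧ ψ v = QuotientGroup.mk q)
      (e.toMonoidHom.comp (QuotientGroup.mk' Q)) := by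
  obtain ⟨hz, hF, hE, hc, g, ⟨hq, hq'⟩, hne⟩ := hS
  obtain ⟨h1, h2, h3, h4⟩ := hψ
  obtain ⟨z0, X0⟩ := xs_of hE
  have lx := (lx_of_Fst hz (by rw [← H9.Fst_eq, hF]) (X0.map (centralizer ({z} : Set G)).subtype
    fun x _ h => Subtype.ext h).isExtra).1
  have mm : ∀ q : Q, q.1.1 ∈ Q.map (centralizer ({z} : Set G)).subtype := fun q => ⟨q.1, q.2, rfl⟩
  have cen : ∀ q : Q, q ∈ center Q ↔ q.1.1 = 1 ∨ q.1.1 = z := fun q => by
    refine ⟨fun h => lx.cen _ (mm q) ?_, fun h => mem_center_iff.2 fun y => Subtype.ext (Subtype.ext ?_)⟩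
    · rintro _ ⟨y, hy, rfl⟩
      exact (congrArg (fun t : Q => t.1.1) (mem_center_iff.1 h ⟨y, hy⟩)).symm
    · show y.1.1 * q.1.1 = q.1.1 * y.1.1
      rcases h with h | h <;> rw [h]
      · simp
      · exact lx.zc _ (mm y)
  have ψ0 : ∀ v t, ψ (v + (t + t)) = ψ v := fun v t => by rw [h1, (h3 _).2 ⟨t, rfl⟩, mul_one]
  refine ⟨lx, by rw [card_map_of_injective (subtype_injective _), hc], ?_, fun v => ?_, ?_, ?_, ?_, ?_,
    e.surjective.comp (QuotientGroup.mk'_surjective Q), fun h => ?_, ?_, g, ⟨_, hq', rfl⟩, hne⟩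
  · rintro v x ⟨q, rfl, -⟩; exact mm q
  · obtain ⟨q, hq⟩ := QuotientGroup.mk_surjective (ψ v)
    exact ⟨_, q, rfl, hq.symm⟩
  · rintro _ ⟨y, hy, rfl⟩
    obtain ⟨v, hv⟩ := h2 (QuotientGroup.mk ⟨y, hy⟩)
    exact ⟨v, ⟨y, hy⟩, rfl, hv⟩
  · rintro v w x y ⟨q, rfl, a⟩ ⟨r, rfl, b⟩
    exact ⟨q * r, rfl, by rw [h1, a, b]; rfl⟩
  · rintro v x y ⟨q, rfl, a⟩
    constructor
    · rintro ⟨r, rfl, b⟩
      rcases (cen _).1 (QuotientGroup.eq.1 (a.symm.trans b)) with c | c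
      · exact Or.inl (inv_mul_eq_one.1 c).symm
      · exact Or.inr (inv_mul_eq_iff_eq_mul.1 c)
    · rintro (rfl | rfl)
      · exact ⟨q, rfl, a⟩
      · obtain ⟨y, hy, e⟩ := lx.zQ
        refine ⟨q * ⟨y, hy⟩, congrArg (q.1.1 * ·) e, a.trans (QuotientGroup.eq.2 ((cen _).2 (Or.inr ?_)))⟩
        rw [inv_mul_cancel_left]; exact e
  · rintro v w x ⟨q, rfl, a⟩
    constructor
    · rintro ⟨r, e, b⟩
      obtain rfl : r = q := Subtype.ext (Subtype.ext e)
      obtain ⟨t, ht⟩ := (h3 (w - v)).1 (mul_right_cancel (b := ψ v) (by rw [← h1, sub_add_cancel, one_mul, a, b]))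
      exact ⟨t, by rw [← ht]; abel⟩
    · rintro ⟨t, rfl⟩
      exact ⟨q, rfl, (ψ0 v t).trans a⟩
  · show e (QuotientGroup.mk h) = 1 ↔ _
    rw [map_eq_one_iff e e.injective, QuotientGroup.eq_one_iff]
    exact ⟨fun k => ⟨h, k, rfl⟩, fun ⟨y, hy, k⟩ => (Subtype.ext k : y = h) ▸ hy⟩
  · rintro h g v x k ⟨q, rfl, a⟩
    exact ⟨_, rfl, h4 h g k v q a⟩

namespace Mon
variable {z : G} {P : Subgroup G} {R : Λ → G → Prop} {π : centralizer ({z} : Set G) →* Spor.Co1} (M : Mon z P R π)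
include M

theorem twist (k : Co0) : Mon z P (fun v x => R (k • v) x)
    ((MulAut.conj (QuotientGroup.mk k : Spor.Co1)⁻¹).toMonoidHom.comp π) where
  lx := M.lx
  card := M.card
  mem := M.mem
  ex1 v := M.ex1 _
  ex2 x hx := by
    obtain ⟨v, hv⟩ := M.ex2 x hx
    exact ⟨k⁻¹ • v, by rwa [smul_inv_smul]⟩
  add a b := by rw [smul_add']; exact M.add a b
  fib := M.fib
  fib2 {v w x} a := (M.fib2 a).trans ⟨fun ⟨t, e⟩ => ⟨k⁻¹ • t, by
      rw [← smul_add', ← inv_smul_smul k v, ← smul_add', ← e, inv_smul_smul]⟩,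
    fun ⟨t, e⟩ => ⟨k • t, by rw [e, smul_add', smul_add']⟩⟩
  sur := (MulAut.conj _).surjective.comp M.sur
  ker h := (map_eq_one_iff _ (MulAut.conj _).injective).trans (M.ker h)
  act {h g v x} e a := by
    have := M.act (h := h) (g := k * g * k⁻¹) (by
      rw [QuotientGroup.mk_mul, QuotientGroup.mk_mul, e]; simp [mul_assoc]) a
    rwa [mul_smul, inv_smul_smul, mul_smul] at this
  ex := M.ex

theorem lift (g : Co0) : ∃ h, (QuotientGroup.mk g : Spor.Co1) = π h :=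
  (M.sur _).imp fun _ => Eq.symm

omit M in
theorem lift' (h : centralizer ({z} : Set G)) : ∃ g : Co0, (QuotientGroup.mk g : Spor.Co1) = π h :=
  QuotientGroup.mk_surjective _

theorem sq {v : Λ} {x : G} (a : R v x) : x * x = 1 ↔ (32 : ℤ) ∣ sqNorm (v : V) := by
  choose f hf using M.ex1
  have k : ∀ {v x}, R v x → kq (f v) = kq x := fun {v x} a => by
    rcases (M.fib a).1 (hf v) with e | e <;> rw [e]
    exact M.lx.toXS.kq_z (M.mem a)
  have X := M.lx.toXS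
  have m : ∀ v, f v ∈ P := fun v => M.mem (hf v)
  have := s5552 (fun v => kq (f v)) (fun x w => k ((M.fib2 (hf x)).2 ⟨w, rfl⟩)) (fun a b c => by
      show kq (f _) + kq (f _) + kq (f _) + kq (f _) = kq (f _) + kq (f _) + kq (f _)
      rw [k (M.add (M.add (hf a) (hf b)) (hf c)), k (M.add (hf a) (hf b)), k (M.add (hf a) (hf c)),
        k (M.add (hf b) (hf c)), X.kq_mul (P.mul_mem (m a) (m b)) (m c), X.kq_mul (m a) (m c),
        X.kq_mul (m b) (m c), X.bq_mul (m a) (m b) (m c)]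
      ring) (fun g x => by
      obtain ⟨h, e⟩ := M.lift g
      exact (k (M.act e (hf x))).trans (kq_conj _ _)) (by
      by_contra hh
      push Not at hh
      obtain ⟨x, hx, y, hy, n⟩ := X.nab
      have : ∀ x ∈ P, kq x = 0 := fun x hx => by
        obtain ⟨v, hv⟩ := M.ex2 x hx
        rw [← k hv, hh]
      have e := X.kq_mul hx hy
      rw [this _ hx, this _ hy, this _ (P.mul_mem hx hy), bq, if_neg n] at e
      exact absurd e (by decide)) v
  rw [k a] at this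
  obtain ⟨n, hn⟩ := even v.2
  rw [hn, Int.mul_ediv_cancel_left _ (by norm_num)] at this
  have h2 : (n : ZMod 2) = 0 ↔ (2 : ℤ) ∣ n := ZMod.intCast_zmod_eq_zero_iff_dvd n 2
  rw [hn, show (32 : ℤ) ∣ 16 * n ↔ (2 : ℤ) ∣ n by omega, ← h2, ← this, kq]
  split_ifs with c <;> simp [c]

theorem zero : R 0 1 ∧ R 0 z := by
  obtain ⟨v, hv⟩ := M.ex2 1 P.one_mem
  have h1 := M.add hv hv
  rw [mul_one] at h1
  have h0 : R 0 1 := (M.fib2 h1).2 ⟨-v, by abel⟩
  exact ⟨h0, (M.fib h0).2 (Or.inr (one_mul z).symm)⟩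

/-- a short representative -/
theorem short {x : G} (hx : x ∈ P) (h1 : x ≠ 1) (h2 : x ≠ z) (h3 : x * x = 1) :
    ∃ v : Λ, R v x ∧ (sqNorm (v : V) = 32 ∨ sqNorm (v : V) = 64) := by
  obtain ⟨w, hw⟩ := M.ex2 x hx
  obtain ⟨v, t, e, h⟩ := H8.Le.short w
  have a : R v x := (M.fib2 hw).2 ⟨-t, by rw [e]; abel⟩
  refine ⟨v, a, ?_⟩
  rcases h with rfl | h | h | h
  · rcases (M.fib M.zero.1).1 a with c | c
    · exact absurd c h1
    · exact absurd (c.trans (one_mul z)) h2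
  · exact Or.inl h
  · have := (M.sq a).1 h3
    omega
  · exact Or.inr h

theorem ne_of {v : Λ} {x : G} (a : R v x) (h0 : 0 < sqNorm (v : V)) (h : sqNorm (v : V) ≤ 64) : x ≠ 1 ∧ x ≠ z := by
  have k : ¬ R 0 x := fun b => by
    obtain ⟨t, e⟩ := (M.fib2 b).1 a
    rw [zero_add] at e
    have n : sqNorm (v : V) = 4 * sqNorm (t : V) := by rw [e, ← norm_two, two_nsmul]; rfl
    have := min_norm t.2 fun c => by rw [c] at n; simp [sqNorm] at n h0; omega
    omega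
  exact ⟨fun c => k (c ▸ M.zero.1), fun c => k (c ▸ M.zero.2)⟩

/-- moving by a lattice automorphism -/
theorem conj {v w : Λ} {x y : G} (a : R v x) (b : R w y) (h1 : y ≠ 1) (h2 : y ≠ z) {g : Co0} {t : Λ}
    (e : g • v = w + (t + t)) : ∃ h : centralizer ({z} : Set G), (QuotientGroup.mk g : Spor.Co1) = π h ∧
      h.1 * x * h.1⁻¹ = y := by
  obtain ⟨h, k⟩ := M.lift g
  have c := M.act k a
  rw [e] at c
  rcases (M.fib ((M.fib2 b).2 ⟨t, rfl⟩)).1 c with c | c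
  · exact ⟨h, k, c⟩
  · obtain ⟨q, hq, -, e⟩ := M.lx.toXS.exists_conj (M.mem b) h1 h2
    refine ⟨(⟨q, M.lx.le_cent hq⟩ : centralizer ({z} : Set G))⁻¹ * h, ?_, ?_⟩
    · rw [map_mul, map_inv, (M.ker ⟨q, _⟩).2 hq, inv_one, one_mul, k]
    · show q⁻¹ * h.1 * x * (q⁻¹ * h.1)⁻¹ = y
      rw [show q⁻¹ * h.1 * x * (q⁻¹ * h.1)⁻¹ = q⁻¹ * (h.1 * x * h.1⁻¹) * q by group, c, ← e]; group

theorem tr {v w : Λ} {x y : G} (a : R v x) (b : R w y) (h : sqNorm (v : V) = sqNorm (w : V))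
    (h' : sqNorm (w : V) = 32 ∨ sqNorm (w : V) = 64) : ∃ h ∈ centralizer ({z} : Set G), h * x * h⁻¹ = y := by
  obtain ⟨n1, n2⟩ := M.ne_of b (by omega) (by omega)
  obtain ⟨g, e⟩ : ∃ g : Co0, g • v = w := by
    rcases h' with h' | h'
    · obtain ⟨g, e⟩ := nf32 (h.trans h')
      obtain ⟨g', e'⟩ := nf32 h'
      exact ⟨g' * g⁻¹, by rw [← e, mul_smul, inv_smul_smul, e']⟩
    · obtain ⟨g, e⟩ := nf64 (h.trans h')
      obtain ⟨g', e'⟩ := nf64 h'
      exact ⟨g' * g⁻¹, by rw [← e, mul_smul, inv_smul_smul, e']⟩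
  obtain ⟨k, -, e⟩ := M.conj a b n1 n2 (g := g) (t := 0) (by simpa using e)
  exact ⟨k.1, k.2, e⟩

omit M in
/-- the stabiliser of a class modulo `2Λ` -/
def St (v : Λ) : Subgroup Co0 where
  carrier := {k | ∃ t, k • v = v + (t + t)}
  one_mem' := ⟨0, by simp⟩
  mul_mem' := by
    rintro a b ⟨s, e⟩ ⟨t, f⟩
    exact ⟨s + a • t, by rw [mul_smul, f, smul_add', smul_add', e]; abel⟩
  inv_mem' := by
    rintro a ⟨s, e⟩
    refine ⟨-(a⁻¹ • s), ?_⟩
    have := congrArg (a⁻¹ • ·) e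
    simp only [inv_smul_smul, smul_add'] at this
    rw [eq_add_neg_iff_add_eq.2 this.symm]; abel

omit M in
def NN (π : centralizer ({z} : Set G) →* Spor.Co1) (B : Subgroup G) : Subgroup Co0 :=
  ((B.subgroupOf _).map π).comap (QuotientGroup.mk' (center Co0))

omit M in
theorem mem_NN {B : Subgroup G} {k : Co0} :
    k ∈ NN π B ↔ ∃ h : centralizer ({z} : Set G), h.1 ∈ B ∧ (QuotientGroup.mk k : Spor.Co1) = π h :=
  ⟨fun ⟨h, a, b⟩ => ⟨h, a, b.symm⟩, fun ⟨h, a, b⟩ => ⟨h, a, b.symm⟩⟩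

theorem St_eq {v : Λ} {s : G} (a : R v s) (h1 : s ≠ 1) (h2 : s ≠ z) : St v = NN π (centralizer {s}) := by
  ext k
  rw [mem_NN]
  constructor
  · rintro ⟨t, e⟩
    obtain ⟨h, k, c⟩ := M.conj a a h1 h2 e
    exact ⟨h, mem_centralizer_singleton_iff.2 (conj_eq_iff_comm.1 c), k⟩
  · rintro ⟨h, c, k⟩
    have := M.act k a
    rw [conj_eq_iff_comm.2 (mem_centralizer_singleton_iff.1 c)] at this
    exact (M.fib2 a).1 this

theorem NN_le (g : G) : NN π (H9.cj g P) ≤ NN π (centralizer {g * z * g⁻¹}) := fun _ hk => by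
  obtain ⟨h, a, b⟩ := mem_NN.1 hk
  exact mem_NN.2 ⟨h, (M.lx.cj g).le_cent a, b⟩

theorem NN_conj (g : G) {a k : Co0} (ha : a ∈ NN π (centralizer {g * z * g⁻¹})) (hk : k ∈ NN π (H9.cj g P)) :
    a * k * a⁻¹ ∈ NN π (H9.cj g P) := by
  obtain ⟨h, c, e⟩ := mem_NN.1 ha
  obtain ⟨r, c', e'⟩ := mem_NN.1 hk
  exact mem_NN.2 ⟨h * r * h⁻¹, (M.lx.cj g).nQ _ (mem_centralizer_singleton_iff.1 c) _ c', by
    rw [QuotientGroup.mk_mul, QuotientGroup.mk_mul, QuotientGroup.mk_inv, e, e', map_mul, map_mul, map_inv]⟩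

theorem NN_pow (g : G) {k : Co0} (hk : k ∈ NN π (H9.cj g P)) : k ^ 8 = 1 := by
  obtain ⟨r, c, e⟩ := mem_NN.1 hk
  have X := (M.lx.cj g).toXS
  have h4 : r ^ 4 = 1 := Subtype.ext (by
    show r.1 ^ 4 = 1
    rw [show r.1 ^ 4 = r.1 * r.1 * (r.1 * r.1) by simp [pow_succ, mul_assoc]]
    rcases X.sq _ c with h | h <;> rw [h]
    · simp
    · exact X.z2)
  have : k ^ 4 ∈ center Co0 := (QuotientGroup.eq_one_iff _).1 (by rw [QuotientGroup.mk_pow, e, ← map_pow, h4, map_one])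
  rw [show k ^ 8 = k ^ 4 * k ^ 4 by group]
  rcases mem_center.1 this with h | h <;> rw [h]
  · simp
  · exact neg_mul_neg

omit M in
theorem mk_neg : (QuotientGroup.mk neg : Spor.Co1) = 1 := (QuotientGroup.eq_one_iff _).2 neg_center

omit M in
theorem bot_of_simple {S : Type*} [Group S] [Finite S] [IsSimpleGroup S] (h3 : 3 ∣ Nat.card S) (N : Subgroup S)
    (hN : N.Normal) (h : ∀ x ∈ N, x ^ 8 = 1) : N = ⊥ := by
  haveI := Fact.mk Nat.prime_three
  refine (hN.eq_bot_or_eq_top).resolve_right fun e => ?_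
  obtain ⟨x, hx⟩ := exists_prime_orderOf_dvd_card' 3 h3
  have := orderOf_dvd_of_pow_eq_one (h x (e ▸ mem_top x))
  rw [hx] at this
  omega

variable [Finite G]

theorem not_le {g : G} (h1 : g * z * g⁻¹ ∈ P) (h2 : g * z * g⁻¹ ≠ z) : ¬ H9.cj g P ⊓ centralizer {z} ≤ P := fun h => by
  have X := (M.lx.cj g).toXS
  obtain ⟨a, ha, b, hb, c, d, e⟩ := X.cent_nab (by rw [H9.card_cj, M.card]; norm_num) (M.lx.sym h1)
  have := M.lx.toXS.comm_mem (h ⟨ha, mem_centralizer_singleton_iff.2 c⟩) (h ⟨hb, mem_centralizer_singleton_iff.2 d⟩)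
  rw [e, mem_zp2 M.lx.z2] at this
  exact this.elim X.z1 h2

theorem not_u {g : G} (a : R u (g * z * g⁻¹)) : False := by
  obtain ⟨n1, n2⟩ := M.ne_of a (by rw [n_u]; norm_num) (by rw [n_u]; norm_num)
  have S := M.St_eq a n1 n2
  have l : K2 ≤ St u := fun k hk => ⟨0, by simpa using hk⟩
  haveI := sK2
  have B := bot_of_simple (S := K2) (by rw [cK2]; norm_num) ((NN π (H9.cj g P)).subgroupOf K2)
    ⟨fun k hk a => M.NN_conj g (S ▸ l a.2) hk⟩ fun x hx => Subtype.ext (M.NN_pow g hx)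
  refine M.not_le (M.mem a) n2 fun r hr => (M.ker ⟨r, hr.2⟩).1 ?_
  have key : ∀ k ∈ K2, (QuotientGroup.mk k : Spor.Co1) = π ⟨r, hr.2⟩ → π ⟨r, hr.2⟩ = 1 := fun k hk e => by
    have : (⟨k, hk⟩ : K2) ∈ (NN π (H9.cj g P)).subgroupOf K2 := mem_NN.2 ⟨_, hr.1, e⟩
    rw [B] at this
    rw [← e, show k = 1 from congrArg Subtype.val (mem_bot.1 this)]; rfl
  obtain ⟨k, e⟩ := lift' (π := π) ⟨r, hr.2⟩
  obtain ⟨t, ht⟩ : k ∈ St u := S ▸ M.NN_le g (mem_NN.2 ⟨_, hr.1, e⟩)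
  by_cases c : k • u = u
  · exact key k c e
  have nk : sqNorm ((k • u : Λ) : V) = 32 := (norm_smul' k u).trans n_u
  rcases cong_short u.2 (fun h => c (Subtype.ext h)) (by omega) (by rw [n_u]; norm_num)
    ⟨t, t.2, by rw [ht, two_nsmul]; simp⟩ with h | h
  · refine key (neg * k) ?_ (by rw [QuotientGroup.mk_mul, mk_neg, one_mul, e])
    show (neg * k) • u = u
    rw [mul_smul, show k • u = -u from Subtype.ext h, neg_smul', neg_neg]
  · omega

theorem not32 {g : G} {v : Λ} (a : R v (g * z * g⁻¹)) : sqNorm (v : V) ≠ 32 := fun h => by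
  obtain ⟨k, rfl⟩ := nf32 h
  exact (M.twist k).not_u a

theorem ex64 {s : G} (h1 : s ∈ P) (h2 : IsConj z s) (h3 : s ≠ z) : ∃ v : Λ, R v s ∧ sqNorm (v : V) = 64 := by
  obtain ⟨g, rfl⟩ := _root_.isConj_iff.1 h2
  have X := (M.lx.cj g).toXS
  obtain ⟨v, a, h⟩ := M.short h1 X.z1 h3 X.z2
  exact ⟨v, a, h.resolve_left (M.not32 a)⟩

theorem of64 {v : Λ} {s : G} (a : R v s) (h : sqNorm (v : V) = 64) : IsConj z s ∧ s ≠ z := by
  obtain ⟨g, h1, h2⟩ := M.ex
  have c : IsConj z (g * z * g⁻¹) := _root_.isConj_iff.2 ⟨g, rfl⟩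
  obtain ⟨w, b, hw⟩ := M.ex64 h1 c h2
  obtain ⟨k, -, e⟩ := M.tr b a (hw.trans h.symm) (Or.inr h)
  exact ⟨c.trans (_root_.isConj_iff.2 ⟨k, e⟩), (M.ne_of a (by omega) h.le).2⟩

theorem ex32 {s : G} (h1 : s ∈ P) (h2 : orderOf s = 2) (h3 : ¬ IsConj z s) : ∃ v : Λ, R v s ∧ sqNorm (v : V) = 32 := by
  obtain ⟨v, a, h⟩ := M.short h1 (ne_one_of_ord h2) (fun e => h3 (e ▸ IsConj.refl _))
    (by rw [← pow_two, ← h2, pow_orderOf_eq_one])
  exact ⟨v, a, h.resolve_right fun h => h3 (M.of64 a h).1⟩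

end Mon
end H2
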