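import Cfsg.Agent.H2.Mon
import Cfsg.Agent.H1.ES2
import Cfsg.Agent.H7.Mathieu

/-! H2.Mon2: the monomial subgroup `Hc = SgD : M24` of `Co0` and groups of Monster type (`Mon.main`). -/

set_option autoImplicit false

namespace H2
open Subgroup Cfsg H8.Le

def Pm (k : Co0) (σ : Equiv.Perm GolayPt) : Prop := ∀ i, k • E i = E (σ i) ∨ k • E i = -E (σ i)

theorem sp_E (σ : Equiv.Perm GolayPt) (c : Finset GolayPt) (i : GolayPt) :
    signedPerm σ c (E i : V) = if σ i ∈ c then -(E (σ i) : V) else (E (σ i) : V) := by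
  funext j
  have : σ.symm j = i ↔ j = σ i := σ.symm_apply_eq
  by_cases h : j = σ i
  · subst h
    by_cases k : σ i ∈ c <;> simp [signedPerm, E_apply, k]
  · by_cases k : σ i ∈ c <;> simp [signedPerm, E_apply, k, h, this]

theorem pm_of {k : Co0} {σ : Equiv.Perm GolayPt} {c : Finset GolayPt}
    (h : ∀ v : Λ, ((k • v : Λ) : V) = signedPerm σ c v) : Pm k σ := fun i => by
  have := (h (E i)).trans (sp_E σ c i)
  split_ifs at this
  · exact Or.inr (Subtype.ext this)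
  · exact Or.inl (Subtype.ext this)

theorem Pm.mul {a b : Co0} {σ τ : Equiv.Perm GolayPt} (h : Pm a σ) (k : Pm b τ) : Pm (a * b) (σ * τ) := fun i => by
  rcases k i with e | e <;> rcases h (τ i) with f | f <;> simp [mul_smul, e, f, smul_neg']

theorem Pm.uniq {a : Co0} {σ τ : Equiv.Perm GolayPt} (h : Pm a σ) (k : Pm a τ) : σ = τ := Equiv.ext fun i => by
  by_contra n
  rcases k i with e | e <;> rcases h i with f | f <;>
  · have := congrFun (congrArg Subtype.val (e.symm.trans f)) (σ i)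
    simp [E_apply, n] at this

theorem Pm.mem {a : Co0} {σ : Equiv.Perm GolayPt} (h : Pm a σ) : a ∈ Hc :=
  mem_std.2 ⟨σ none, (h none).imp (congrArg Subtype.val) (congrArg Subtype.val)⟩

theorem exists_pm (k : Hc) : ∃ σ : M24, Pm k.1 σ.1 := by
  obtain ⟨σ, h, c, -, e⟩ := mono_of_cross k.2
  exact ⟨⟨σ, h⟩, pm_of e⟩

noncomputable def rho24 : Hc →* M24 := MonoidHom.mk' (fun k => (exists_pm k).choose) fun a b =>
  Subtype.ext ((exists_pm (a * b)).choose_spec.uniq ((exists_pm a).choose_spec.mul (exists_pm b).choose_spec))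

theorem pm_rho (k : Hc) : Pm k.1 (rho24 k).1 := (exists_pm k).choose_spec

theorem exists_io (σ : M24) : ∃ k : Co0, ∀ i, k • E i = E (σ.1 i) := by
  obtain ⟨k, h⟩ := exists_mono σ.2 empty_mem
  exact ⟨k, fun i => Subtype.ext ((h (E i)).trans ((sp_E _ _ i).trans (by simp)))⟩

noncomputable def io24 : M24 →* Co0 := MonoidHom.mk' (fun σ => (exists_io σ).choose) fun a b => ext_E fun l => by
  rw [mul_smul, (exists_io b).choose_spec, (exists_io a).choose_spec, (exists_io (a * b)).choose_spec]; rfl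

theorem io_E (σ : M24) (i : GolayPt) : io24 σ • E i = E (σ.1 i) := (exists_io σ).choose_spec i
theorem pm_io (σ : M24) : Pm (io24 σ) σ.1 := fun i => Or.inl (io_E σ i)
theorem rho_io (σ : M24) : rho24 ⟨io24 σ, (pm_io σ).mem⟩ = σ := Subtype.ext ((pm_rho _).uniq (pm_io σ))

/-- the sign changes -/
noncomputable def SgD : Subgroup Co0 := rho24.ker.map Hc.subtype

theorem mem_DD {k : Co0} : k ∈ SgD ↔ Pm k 1 :=
  ⟨fun ⟨a, h, e⟩ => by
    have := pm_rho a
    rw [show rho24 a = 1 from h] at this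
    exact e ▸ this, fun h => ⟨⟨k, h.mem⟩, Subtype.ext ((pm_rho _).uniq h), rfl⟩⟩

theorem card_DD : Nat.card SgD = 4096 := by
  have := H1.card_eq_card_ker_mul_card_map rho24 ⊤
  rw [inf_top_eq, card_top, card_Hc, map_top_of_surjective _ fun σ => ⟨_, rho_io σ⟩, card_top, H7.card_M24] at this
  rw [SgD, card_map_of_injective (subtype_injective _)]
  omega

theorem neg_DD : neg ∈ SgD := mem_DD.2 fun i => Or.inr (neg_smul' _)

theorem DD_sq {k : Co0} (h : k ∈ SgD) : k * k = 1 := ext_E fun i => by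
  rcases mem_DD.1 h i with e | e <;> simp only [Equiv.Perm.coe_one, id] at e <;> simp [mul_smul, e, smul_neg']

theorem St_E : Mon.St (E none) = Hc := by
  ext k
  constructor
  · rintro ⟨t, e⟩
    exact std_of_cong ((norm_smul' k _).trans (norm_E _)) (i := none) ⟨t, t.2, by rw [e, two_nsmul]; simp⟩
  · intro h
    obtain ⟨i, e⟩ := mem_std.1 h
    obtain ⟨t, ht, f⟩ := E_cong i none
    rw [two_nsmul] at f
    rcases e with e | e
    · exact ⟨⟨t, ht⟩, Subtype.ext (by rw [e]; simp [← f])⟩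
    · refine ⟨⟨t, ht⟩ - E i, Subtype.ext ?_⟩
      rw [e]
      have : (E none : V) = E i - (t + t) := by rw [← f]; abel
      simp only [AddSubgroup.coe_add, AddSubgroup.coe_sub, this]; abel

theorem split24 {H : Type*} [Group H] (f : Co0 →* H) (hf : f.ker = center Co0) :
    SgD.map f ≤ Hc.map f ∧ (∀ x ∈ Hc.map f, ∀ y ∈ SgD.map f, x * y * x⁻¹ ∈ SgD.map f) ∧
    IsElementaryAbelian 2 (SgD.map f) ∧ Nat.card (SgD.map f) = 2 ^ 11 ∧
    ∃ K : Subgroup H, K ≤ Hc.map f ∧ SgD.map f ⊓ K = ⊥ ∧ SgD.map f ⊔ K = Hc.map f ∧ Nonempty (K ≃* M24) := by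
  have l : SgD ≤ Hc := map_subtype_le _
  have lc : f.ker ≤ SgD := fun k hk => by
    rcases mem_center.1 (hf ▸ hk) with rfl | rfl
    exacts [SgD.one_mem, neg_DD]
  have lK : (f.comp io24).range ≤ Hc.map f := by
    rintro _ ⟨σ, rfl⟩; exact ⟨_, (pm_io σ).mem, rfl⟩
  have k1 : ∀ σ, io24 σ ∈ SgD → σ = 1 := fun σ h => Subtype.ext ((pm_io σ).uniq (mem_DD.1 h))
  refine ⟨map_mono l, ?_, ⟨⟨⟨?_⟩⟩, ?_⟩, ?_, (f.comp io24).range, lK, eq_bot_iff.2 ?_,
    le_antisymm (sup_le (map_mono l) lK) ?_, ⟨(MonoidHom.ofInjective ?_).symm⟩⟩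
  · rintro _ ⟨a, ha, rfl⟩ _ ⟨_, ⟨d, hd, rfl⟩, rfl⟩
    exact ⟨a * d.1 * a⁻¹, ⟨⟨a, ha⟩ * d * (⟨a, ha⟩ : Hc)⁻¹, rho24.normal_ker.conj_mem d hd ⟨a, ha⟩, rfl⟩,
      by rw [map_mul, map_mul, map_inv]; rfl⟩
  · rintro ⟨_, a, ha, rfl⟩ ⟨_, b, hb, rfl⟩
    refine Subtype.ext ?_
    show f a * f b = f b * f a
    rw [← map_mul, ← map_mul, eq_inv_of_mul_eq_one_left (DD_sq (SgD.mul_mem ha hb)), mul_inv_rev,
      inv_eq_of_mul_eq_one_left (DD_sq ha), inv_eq_of_mul_eq_one_left (DD_sq hb)]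
  · rintro _ ⟨a, ha, rfl⟩
    rw [pow_two, ← map_mul, DD_sq ha, map_one]
  · have := H1.card_eq_card_ker_mul_card_map f SgD
    rw [inf_eq_left.2 lc, hf, card_center, card_DD] at this
    omega
  · rintro _ ⟨⟨d, hd, rfl⟩, σ, e⟩
    have : io24 σ * d⁻¹ ∈ f.ker := by
      rw [MonoidHom.mem_ker, map_mul, map_inv, ← e]; simp
    rw [k1 σ (by simpa using SgD.mul_mem (lc this) hd), map_one] at e
    exact mem_bot.2 e.symm
  · rintro _ ⟨a, ha, rfl⟩
    have : a * (io24 (rho24 ⟨a, ha⟩))⁻¹ ∈ SgD :=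
      ⟨⟨a, ha⟩ * (⟨io24 (rho24 ⟨a, ha⟩), (pm_io (rho24 ⟨a, ha⟩)).mem⟩ : Hc)⁻¹, by
        show rho24 _ = 1
        rw [map_mul, map_inv, rho_io, mul_inv_cancel], rfl⟩
    have e : f a = f (a * (io24 (rho24 ⟨a, ha⟩))⁻¹) * (f.comp io24) (rho24 ⟨a, ha⟩) := by simp
    rw [e]
    exact mul_mem_sup ⟨_, this, rfl⟩ ⟨_, rfl⟩
  · exact (injective_iff_map_eq_one _).2 fun σ h => k1 σ (lc h)

variable {G : Type*} [Group G] [Finite G]

namespace Mon
variable {z : G} {P : Subgroup G} {R : Λ → G → Prop} {π : centralizer ({z} : Set G) →* Spor.Co1} (M : Mon z P R π)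
include M

theorem elem {g : G} (h2 : g * z * g⁻¹ ≠ z) : IsElementaryAbelian 2 (P ⊓ H9.cj g P) := by
  have X := (M.lx.cj g).toXS
  have Y := M.lx.toXS
  have k : ∀ x, x ∈ zpowers z → x ∈ zpowers (g * z * g⁻¹) → x = 1 := fun x a b => by
    rw [mem_zp2 Y.z2] at a
    rw [mem_zp2 X.z2] at b
    exact a.elim id fun a => b.elim id fun b => absurd (b.symm.trans a) h2
  refine ⟨⟨⟨fun a b => Subtype.ext ?_⟩⟩, fun a ha => (pow_two a).trans (k _ (Y.sq_mem ha.1) (X.sq_mem ha.2))⟩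
  exact mul_inv_eq_iff_eq_mul.1 (mul_inv_eq_one.1 (k _ (Y.comm_mem a.2.1 b.2.1) (X.comm_mem a.2.2 b.2.2)))

theorem main {g : G} (a : R (E none) (g * z * g⁻¹)) : NN π (centralizer {g * z * g⁻¹}) = Hc ∧
    NN π (H9.cj g P) = SgD ∧ Nat.card ↥(P ⊓ H9.cj g P) = 2 ^ 13 := by
  obtain ⟨n1, n2⟩ := M.ne_of a (by rw [norm_E]; norm_num) (by rw [norm_E])
  have S := (M.St_eq a n1 n2).symm.trans St_E
  haveI := H7.SDuad_simple
  have B := bot_of_simple (S := M24) (by rw [H7.card_M24]; norm_num) (((NN π (H9.cj g P)).subgroupOf Hc).map rho24)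
    (Normal.map ⟨fun k hk (a : Hc) => M.NN_conj g (S.ge a.2) hk⟩ _ fun σ => ⟨_, rho_io σ⟩) (by
      rintro _ ⟨x, hx, rfl⟩
      rw [← map_pow, show x ^ 8 = 1 from Subtype.ext (M.NN_pow g hx), map_one])
  have l : NN π (H9.cj g P) ≤ SgD := fun k hk =>
    ⟨⟨k, S.le (M.NN_le g hk)⟩, mem_bot.1 (B ▸ mem_map_of_mem rho24 (mem_subgroupOf.2 hk)), rfl⟩
  have c1 : Nat.card (NN π (H9.cj g P)) = 2 * Nat.card (((H9.cj g P).subgroupOf _).map π) := by
    rw [NN, H1.card_comap_mk', card_center]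
  have c2 := H1.card_eq_card_ker_mul_card_map π ((H9.cj g P).subgroupOf _)
  have c3 : Nat.card ↥(π.ker ⊓ (H9.cj g P).subgroupOf _) = Nat.card ↥(P ⊓ H9.cj g P) := by
    rw [← card_map_of_injective (subtype_injective (centralizer {z}))]
    congr 2
    ext x
    exact ⟨fun ⟨y, hy, e⟩ => e ▸ ⟨(M.ker y).1 hy.1, hy.2⟩,
      fun h => ⟨⟨x, M.lx.le_cent h.1⟩, ⟨(M.ker _).2 h.1, h.2⟩, rfl⟩⟩
  have c4 : Nat.card ((H9.cj g P).subgroupOf (centralizer {z})) = Nat.card ↥(H9.cj g P ⊓ centralizer {z}) := by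
    rw [← card_map_of_injective (subtype_injective (centralizer {z})), subgroupOf_map_subtype]
  have X := (M.lx.cj g).toXS
  have c5 := idx2 (E := H9.cj g P) (M := H9.cj g P ⊓ centralizer {z}) inf_le_left fun x hx y hy h1 h2 =>
    ⟨(H9.cj g P).mul_mem hx hy, mem_centralizer_singleton_iff.2
      ((X.comm_mul_iff' (M.lx.sym (M.mem a)) hx hy).2 (iff_of_false
        (fun c => h1 ⟨hx, mem_centralizer_singleton_iff.2 c⟩) fun c => h2 ⟨hy, mem_centralizer_singleton_iff.2 c⟩))⟩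
  rw [H9.card_cj, M.card] at c5
  haveI := Fact.mk Nat.prime_two
  obtain ⟨m, z', xp⟩ := H1.xp_of M.lx.toXS.isExtra
  have hm : m + 1 = 12 := by
    have := Nat.pow_right_injective (le_refl 2) (xp.cd.symm.trans M.card)
    omega
  have c6 := (xp.elem_le inf_le_left (M.elem n2)).1
  rw [hm] at c6
  have c7 := card_le_of_le l
  rw [card_DD] at c7
  rw [c3, c4] at c2
  generalize Nat.card ↥(P ⊓ H9.cj g P) = p at *
  generalize Nat.card (((H9.cj g P).subgroupOf (centralizer {z})).map π) = q at *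
  have k1 : q = 2048 := by
    by_contra h
    have := Nat.mul_le_mul c6 (show q ≤ 2047 by omega)
    omega
  subst k1
  exact ⟨S, eq_of_le_of_card_ge l (by rw [card_DD, c1]), by omega⟩

theorem norm {g : G} (h1 : g * z * g⁻¹ ∈ P) (h2 : g * z * g⁻¹ ≠ z) :
    ∃ R' π', Mon z P R' π' ∧ R' (E none) (g * z * g⁻¹) := by
  obtain ⟨v, a, h⟩ := M.ex64 h1 (_root_.isConj_iff.2 ⟨g, rfl⟩) h2
  obtain ⟨k, rfl⟩ := nf64 h
  exact ⟨_, _, M.twist k, a⟩

theorem exists_f {Q : Subgroup (centralizer ({z} : Set G))} [Q.Normal] (hQ : P = Q.map (centralizer {z}).subtype) :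
    ∃ f : Co0 →* centralizer ({z} : Set G) ⧸ Q, f.ker = center Co0 ∧
      ∀ B : Subgroup G, (B.subgroupOf _).map (QuotientGroup.mk' Q) = (NN π B).map f := by
  have hk : Q = π.ker := Subgroup.ext fun h => by
    rw [MonoidHom.mem_ker, M.ker, hQ]
    exact ⟨fun k => ⟨h, k, rfl⟩, fun ⟨y, hy, k⟩ => (Subtype.ext k : y = h) ▸ hy⟩
  let e := (QuotientGroup.quotientMulEquivOfEq hk).trans (QuotientGroup.quotientKerEquivOfSurjective π M.sur)
  have he : ∀ h, e.symm (π h) = QuotientGroup.mk h := fun h => e.symm_apply_eq.2 rfl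
  refine ⟨e.symm.toMonoidHom.comp (QuotientGroup.mk' _), Subgroup.ext fun k => ?_, fun B => Subgroup.ext fun y => ?_⟩
  · exact (map_eq_one_iff _ e.symm.injective).trans (QuotientGroup.eq_one_iff k)
  · constructor
    · rintro ⟨h, hB, rfl⟩
      obtain ⟨k, c⟩ := lift' (π := π) h
      exact ⟨k, mem_NN.2 ⟨h, hB, c⟩, (congrArg e.symm c).trans (he h)⟩
    · rintro ⟨k, hk, rfl⟩
      obtain ⟨h, hB, c⟩ := mem_NN.1 hk
      exact ⟨h, hB, ((congrArg e.symm c).trans (he h)).symm⟩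

end Mon
end H2
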