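import Cfsg.Agent.H2.Mon2
import Cfsg.Agent.H1.Cores

/-! H2.Mon3: the centraliser of a non-central involution of `Q` in a group of Monster type. -/

set_option autoImplicit false

namespace H2
open Subgroup Cfsg H8.Le

theorem gfit_eq {C S : Type*} [Group C] [Finite C] [Group S] [Finite S] [IsSimpleGroup S] (h3 : 3 ∣ Nat.card S)
    (θ : C →* S) (hθ : Function.Surjective θ) (hp : IsPGroup 2 θ.ker)
    (hc : (centralizer (θ.ker : Set C)).map θ ≠ ⊤) : generalizedFittingSubgroup C = θ.ker := by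
  haveI := Fact.mk Nat.prime_two
  have e : H9.Op 2 (⊤ : Subgroup C) = θ.ker := by
    rw [H9.Op_top]
    refine le_antisymm ((Subgroup.map_eq_bot_iff _).1 (((inferInstance : (pCore 2 C).Normal).map θ hθ).eq_bot_or_eq_top.resolve_right
      fun e => ?_)) (H1.le_pCore hp)
    have := (H1.pCore_isPGroup (p := 2) (G := C)).map θ
    rw [e] at this
    obtain ⟨n, hn⟩ := this.exists_card_eq
    rw [card_top] at hn
    have := Nat.prime_three.dvd_of_dvd_pow (hn ▸ h3)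
    omega
  rw [← H9.Fst_top, ← e, H9.Fst_eq_Op_iff_centralizer_le, e]
  exact inf_le_right.trans ((Subgroup.map_eq_bot_iff _).1
    (((inferInstance : (centralizer (θ.ker : Set C)).Normal).map θ hθ).eq_bot_or_eq_top.resolve_right hc))

def isoCo2 : K2 ≃* Spor.Co2 where
  toFun k := ⟨k.1.1, k.1.2, k.2⟩
  invFun g := ⟨⟨g.1, g.2.1⟩, g.2.2⟩
  left_inv _ := rfl
  right_inv _ := rfl
  map_mul' _ _ := rfl

theorem exists_sign : ∃ d ∈ SgD, ∃ x : Λ, (16 : ℤ) ∣ dotInt (x : V) (E none : V) ∧ sqNorm ((d • x - x : Λ) : V) = 32 := by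
  have hc : H7.fs 13062145 ∈ H7.CC := H7.fs_mem_supp_of (by decide +kernel)
  have hc' : H7.fs 4038912 ∈ H7.CC := H7.fs_mem_supp_of (by decide +kernel)
  obtain ⟨d, h⟩ := exists_mono M24.one_mem hc
  refine ⟨d, mem_DD.2 (pm_of h), ⟨_, two_chi_mem hc'⟩, ?_, ?_⟩
  · show (16 : ℤ) ∣ dotInt _ (Pi.single none 8)
    rw [dot_single]
    show (16 : ℤ) ∣ (if none ∈ H7.fs 4038912 then 2 else 0) * 8
    split_ifs <;> norm_num
  · rw [AddSubgroup.coe_sub, h]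
    show sqNorm (signedPerm 1 (H7.fs 13062145) (fun i => if i ∈ H7.fs 4038912 then 2 else 0) -
      fun i => if i ∈ H7.fs 4038912 then 2 else 0) = 32
    decide +kernel

theorem exists_move : ∃ k ∈ K2, ∃ x : Λ, (16 : ℤ) ∣ dotInt (x : V) (u : V) ∧ (∀ t, k • x ≠ x + (t + t)) ∧
    ∀ t, k • x ≠ x + u + (t + t) := by
  let y : Λ := ⟨Pi.single (some 1) 4 + Pi.single (some 2) 4, mem_of_four 0 0 (by decide) (by decide +kernel)
    (by decide +kernel)⟩
  have ny : sqNorm (y : V) = 32 := by decide +kernel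
  have nu : sqNorm (u' : V) = 32 := by decide +kernel
  obtain ⟨k, h1, h2⟩ := tr_dot (c := 0) (a := u) (b := u) (x := u') (y := y) (by simp) n_u n_u nu ny
    (by decide +kernel) (by decide +kernel)
  refine ⟨k, h1, u', by decide +kernel, fun t e => ?_, fun t e => ?_⟩
  · rw [h2] at e
    rcases cong_short (x := y) u'.2 (by decide +kernel) (by omega) (by omega) ⟨t, t.2, by rw [e, two_nsmul]; simp⟩
      with h | h
    · exact absurd h (by decide +kernel)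
    · omega
  · rw [h2] at e
    rcases cong_short (x := y) (u' + u).2 (by decide +kernel) (by omega) (by decide +kernel)
      ⟨t, t.2, by rw [e, two_nsmul]; simp⟩ with h | h
    · exact absurd h (by decide +kernel)
    · omega

variable {G : Type*} [Group G]

namespace Mon
variable {z : G} {P : Subgroup G} {R : Λ → G → Prop} {π : centralizer ({z} : Set G) →* Spor.Co1} (M : Mon z P R π)
include M

theorem kq_eq {v : Λ} {x : G} (a : R v x) : kq x = ((sqNorm (v : V) / 16 : ℤ) : ZMod 2) := by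
  have := M.sq a
  obtain ⟨n, hn⟩ := even v.2
  rw [hn, Int.mul_ediv_cancel_left _ (by norm_num)]
  rw [hn, show (32 : ℤ) ∣ 16 * n ↔ (2 : ℤ) ∣ n by omega, ← (show (n : ZMod 2) = 0 ↔ (2 : ℤ) ∣ n from
    ZMod.intCast_zmod_eq_zero_iff_dvd n 2)] at this
  rw [kq]
  split_ifs with c
  · exact (this.1 c).symm
  · exact ((H7.zmod2_cases _).resolve_left fun h => c (this.2 h)).symm

theorem comm {v w : Λ} {x y : G} (a : R v x) (b : R w y) : x * y = y * x ↔ (16 : ℤ) ∣ dotInt (v : V) (w : V) := by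
  have := M.lx.toXS.kq_mul (M.mem a) (M.mem b)
  rw [M.kq_eq a, M.kq_eq b, M.kq_eq (M.add a b), AddSubgroup.coe_add, norm_add] at this
  obtain ⟨n, hn⟩ := even v.2
  obtain ⟨m, hm⟩ := even w.2
  obtain ⟨k, hk⟩ := dot_dvd v.2 w.2
  rw [hn, hm, hk, show 16 * n + 16 * m + 2 * (8 * k) = 16 * (n + m + k) by ring,
    Int.mul_ediv_cancel_left _ (by norm_num), Int.mul_ediv_cancel_left _ (by norm_num),
    Int.mul_ediv_cancel_left _ (by norm_num)] at this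
  push_cast at this
  rw [hk, show (16 : ℤ) ∣ 8 * k ↔ (2 : ℤ) ∣ k by omega, ← (show (k : ZMod 2) = 0 ↔ (2 : ℤ) ∣ k from
    ZMod.intCast_zmod_eq_zero_iff_dvd k 2), add_left_cancel this, bq]
  split_ifs with c <;> simp [c]

theorem inv {v : Λ} {x : G} (a : R v x) : R (-v) x⁻¹ := by
  obtain ⟨w, b⟩ := M.ex2 _ (P.inv_mem (M.mem a))
  have := M.add a b
  rw [mul_inv_cancel] at this
  obtain ⟨t, e⟩ := (M.fib2 this).1 M.zero.1
  exact (M.fib2 b).2 ⟨t, by rw [neg_eq_iff_add_eq_zero, e]; abel⟩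

theorem lift_K2 {t : G} (a : R u t) (h : centralizer ({z} : Set G)) (c : h.1 ∈ centralizer ({t} : Set G)) :
    ∃ k : K2, (QuotientGroup.mk k.1 : Spor.Co1) = π h := by
  obtain ⟨n1, n2⟩ := M.ne_of a (by rw [n_u]; norm_num) (by rw [n_u]; norm_num)
  obtain ⟨k, e⟩ := lift' (π := π) h
  obtain ⟨w, hw⟩ : k ∈ St u := (M.St_eq a n1 n2).ge (mem_NN.2 ⟨_, c, e⟩)
  by_cases c : k • u = u
  · exact ⟨⟨k, c⟩, e⟩
  have nk : sqNorm ((k • u : Λ) : V) = 32 := (norm_smul' k u).trans n_u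
  rcases cong_short u.2 (fun h => c (Subtype.ext h)) (by omega) (by rw [n_u]; norm_num)
    ⟨w, w.2, by rw [hw, two_nsmul]; simp⟩ with h | h
  · refine ⟨⟨neg * k, ?_⟩, by rw [QuotientGroup.mk_mul, mk_neg, one_mul, e]⟩
    show (neg * k) • u = u
    rw [mul_smul, show k • u = -u from Subtype.ext h, neg_smul', neg_neg]
  · omega

omit M in
theorem K2_inj {a b : K2} (h : (QuotientGroup.mk a.1 : Spor.Co1) = QuotientGroup.mk b.1) : a = b := by
  rcases mem_center.1 (QuotientGroup.eq.1 h) with e | e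
  · exact Subtype.ext (inv_mul_eq_one.1 e)
  · have : neg • u = u := e ▸ (a⁻¹ * b).2
    exact absurd ((neg_smul' u).symm.trans this) u_ne

theorem exists_th {t : G} (a : R u t) : ∃ θ : ↥(centralizer ({z} : Set G) ⊓ centralizer ({t} : Set G)) →* K2,
    Function.Surjective θ ∧ ∀ d, (QuotientGroup.mk (θ d).1 : Spor.Co1) = π ⟨d.1, d.2.1⟩ := by
  obtain ⟨n1, n2⟩ := M.ne_of a (by rw [n_u]; norm_num) (by rw [n_u]; norm_num)
  choose f hf using fun d : ↥(centralizer ({z} : Set G) ⊓ centralizer ({t} : Set G)) => M.lift_K2 a ⟨d.1, d.2.1⟩ d.2.2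
  refine ⟨MonoidHom.mk' f fun x y => K2_inj ?_, fun k => ?_, hf⟩
  · show _ = (QuotientGroup.mk (f x).1 : Spor.Co1) * QuotientGroup.mk (f y).1
    rw [hf, hf, hf, ← map_mul]; rfl
  · obtain ⟨h, c, e⟩ := mem_NN.1 ((M.St_eq a n1 n2).le (⟨0, by rw [add_zero, add_zero]; exact k.2⟩ : k.1 ∈ St u))
    exact ⟨⟨h.1, h.2, c⟩, K2_inj ((hf _).trans e.symm)⟩

variable [Finite G]

theorem weak {t : G} (h1 : t ∈ P) (h2 : orderOf t = 2) (h3 : ¬ IsConj z t) :
    ∃ h : G, h * t = t * h ∧ h * z * h⁻¹ ∈ P ∧ h * z * h⁻¹ * t = t * (h * z * h⁻¹) ∧ h * z * h⁻¹ ≠ z := by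
  obtain ⟨g, k1, k2⟩ := M.ex
  obtain ⟨R, π, M, a⟩ := M.norm k1 k2
  obtain ⟨d, hd, x, e1, e2⟩ := exists_sign
  obtain ⟨r, hr, e⟩ := mem_NN.1 ((M.main a).2.1.ge hd)
  obtain ⟨q, b⟩ := M.ex1 x
  have X := M.lx.cj g
  have c := M.add (M.act e b) (M.inv b)
  rw [← sub_eq_add_neg] at c
  have m : r.1 * q * r.1⁻¹ * q⁻¹ ∈ H9.cj g P := by
    rw [show r.1 * q * r.1⁻¹ * q⁻¹ = r.1 * (q * r.1⁻¹ * q⁻¹) by group]
    exact (H9.cj g P).mul_mem hr (X.nQ _ ((M.comm b a).2 e1) _ ((H9.cj g P).inv_mem hr))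
  generalize r.1 * q * r.1⁻¹ * q⁻¹ = s at c m
  have n : ¬ IsConj z s := fun h => by
    obtain ⟨g, rfl⟩ := _root_.isConj_iff.1 h
    exact M.not32 c e2
  haveI := Fact.mk Nat.prime_two
  have o : orderOf s = 2 := orderOf_eq_prime (by rw [pow_two]; exact (M.sq c).2 (by rw [e2]))
    (M.ne_of c (by omega) (by omega)).1
  obtain ⟨w, b1, f1⟩ := M.ex32 h1 h2 h3
  obtain ⟨c1, m1, p1⟩ := M.tr c b1 (e2.trans f1.symm) (Or.inl f1)
  obtain ⟨w', b2, f2⟩ := M.ex32 (H9.mem_cj.1 m) (by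
    rw [← o]; simpa using (MulAut.conj g⁻¹).orderOf_eq s) fun h =>
      n (h.trans (_root_.isConj_iff.2 ⟨g, by group⟩))
  obtain ⟨c2, m2, p2⟩ := M.tr b1 b2 (f1.trans f2.symm) (Or.inl f2)
  rw [mem_centralizer_singleton_iff] at m1 m2
  have ez : c1 * g * c2 * z * (c1 * g * c2)⁻¹ = c1 * (g * z * g⁻¹) * c1⁻¹ := by
    rw [mul_assoc (c1 * g), m2]; group
  refine ⟨c1 * g * c2, conj_eq_iff_comm.1 ?_, ez ▸ M.lx.nQ _ m1 _ k1, ?_, fun h => k2 ?_⟩
  · rw [show c1 * g * c2 * t * (c1 * g * c2)⁻¹ = c1 * g * (c2 * t * c2⁻¹) * g⁻¹ * c1⁻¹ by group, p2, ← p1]; group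
  · rw [ez, ← p1, show c1 * (g * z * g⁻¹) * c1⁻¹ * (c1 * s * c1⁻¹) = c1 * (g * z * g⁻¹ * s) * c1⁻¹ by group,
      ← X.zc s m]; group
  · rw [ez, mul_inv_eq_iff_eq_mul, ← m1] at h
    exact mul_left_cancel h

theorem card_cent {t : G} (h0 : t ∈ P) (h1 : t ≠ 1) (h2 : t ≠ z) : Nat.card ↥(P ⊓ centralizer {t}) = 2 ^ 24 := by
  have X := M.lx.toXS
  have c5 := idx2 (E := P) (M := P ⊓ centralizer {t}) inf_le_left fun x hx y hy h1 h2 =>
    ⟨P.mul_mem hx hy, mem_centralizer_singleton_iff.2 ((X.comm_mul_iff' h0 hx hy).2 (iff_of_false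
        (fun c => h1 ⟨hx, mem_centralizer_singleton_iff.2 c⟩) fun c => h2 ⟨hy, mem_centralizer_singleton_iff.2 c⟩))⟩
  obtain ⟨m, hm⟩ := card_dvd_of_le (inf_le_left : P ⊓ centralizer {t} ≤ P)
  obtain ⟨y, hy, n, -⟩ := X.exists_conj h0 h1 h2
  have : m ≠ 1 := by
    rintro rfl
    have := eq_of_le_of_card_ge (inf_le_left : P ⊓ centralizer {t} ≤ P) (by omega)
    exact n (mem_centralizer_singleton_iff.1 (this.ge hy).2)
  rw [M.card] at hm c5
  generalize Nat.card ↥(P ⊓ centralizer {t}) = p at *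
  have : m = 2 := by
    rcases m with _ | _ | _ | m
    · omega
    · omega
    · rfl
    · nlinarith
  subst this; omega

theorem baby_abs {t : G} (a : R u t) {H : Type*} [Group H] [Finite H] {zb : H}
    (φ : ↥(centralizer ({z} : Set G) ⊓ centralizer ({t} : Set G)) →* centralizer ({zb} : Set H))
    (sφ : Function.Surjective φ) (kφ : ∀ d, φ d = 1 ↔ d.1 = 1 ∨ d.1 = t) (hz : ∀ d, d.1 = z → (φ d).1 = zb)
    (w : ∃ g d, d.1 ∈ P ∧ (φ d).1 = g * zb * g⁻¹ ∧ g * zb * g⁻¹ ≠ zb) : IsOfBabyMonsterType H := by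
  obtain ⟨n1, n2⟩ := M.ne_of a (by rw [n_u]; norm_num) (by rw [n_u]; norm_num)
  have X := M.lx.toXS
  have tP := M.mem a
  have t2 : t * t = 1 := (M.sq a).2 (by rw [n_u])
  have mD : ∀ {x}, x ∈ P → x * t = t * x → x ∈ centralizer ({z} : Set G) ⊓ centralizer ({t} : Set G) :=
    fun h c => ⟨M.lx.le_cent h, mem_centralizer_singleton_iff.2 c⟩
  have zD := mD X.zQ (X.zc t tP).symm
  have tD := mD tP rfl
  obtain ⟨θ, sθ, hθ⟩ := M.exists_th a
  have kθ : ∀ d, θ d = 1 ↔ d.1 ∈ P := fun d =>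
    ⟨fun h => (M.ker ⟨d.1, d.2.1⟩).1 (by rw [← hθ, h]; rfl), fun h => K2_inj ((hθ d).trans ((M.ker _).2 h))⟩
  obtain ⟨θ', hθ'⟩ : ∃ θ' : centralizer ({zb} : Set H) →* Spor.Co2, ∀ d, θ' (φ d) = isoCo2 (θ d) :=
    ⟨φ.liftOfSurjective sφ ⟨isoCo2.toMonoidHom.comp θ, fun d hd => (map_eq_one_iff _ isoCo2.injective).2 ((kθ d).2
      (((kφ d).1 hd).elim (fun e => by rw [e]; exact P.one_mem) fun e => (congrArg (· ∈ P) e).mpr tP))⟩, φ.liftOfRightInverse_comp_apply _ _ _⟩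
  have sθ' : Function.Surjective θ' := fun g => by
    obtain ⟨d, e⟩ := sθ (isoCo2.symm g)
    exact ⟨φ d, by rw [hθ', e, isoCo2.apply_symm_apply]⟩
  have mQ : ∀ d, φ d ∈ θ'.ker ↔ d.1 ∈ P := fun d => by
    rw [MonoidHom.mem_ker, hθ', map_eq_one_iff _ isoCo2.injective, kθ]
  have eφ : ∀ d d', φ d = φ d' ↔ d'.1 = d.1 ∨ d'.1 = d.1 * t := fun d d' => by
    rw [← inv_mul_eq_one, ← map_inv, ← map_mul, kφ]
    exact or_congr (inv_mul_eq_one.trans eq_comm) inv_mul_eq_iff_eq_mul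
  haveI := Fact.mk Nat.prime_two
  have cQ : Nat.card θ'.ker = 2 ^ 23 := by
    have c := H1.card_eq_card_ker_mul_card_map φ (P.subgroupOf _)
    have e1 : (P.subgroupOf _).map φ = θ'.ker := Subgroup.ext fun x => by
      obtain ⟨d, rfl⟩ := sφ x
      exact ⟨fun ⟨d', h, e⟩ => e ▸ (mQ d').2 h, fun h => ⟨d, (mQ d).1 h, rfl⟩⟩
    have e2 : φ.ker ⊓ P.subgroupOf _ = zpowers ⟨t, tD⟩ := Subgroup.ext fun d => by
      rw [mem_zp2 (Subtype.ext t2), Subtype.ext_iff, Subtype.ext_iff]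
      exact ⟨fun h => (kφ d).1 h.1, fun h => ⟨(kφ d).2 h, h.elim (fun e => show d.1 ∈ P from e ▸ P.one_mem)
        fun e => show d.1 ∈ P from e ▸ tP⟩⟩
    have e3 : P ⊓ (centralizer ({z} : Set G) ⊓ centralizer ({t} : Set G)) = P ⊓ centralizer {t} := by
      rw [← inf_assoc, inf_eq_left.2 M.lx.le_cent]
    rw [e1, e2, Nat.card_zpowers, orderOf_eq_prime (p := 2) (Subtype.ext ((pow_two t).trans t2))
      (fun h => n1 (congrArg Subtype.val h)), ← card_map_of_injective (subtype_injective _),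
      subgroupOf_map_subtype, e3, M.card_cent tP n1 n2] at c
    omega
  have z1 : φ ⟨z, zD⟩ ≠ 1 := fun h => ((kφ _).1 h).elim X.z1 n2.symm
  have Y : XS θ'.ker (φ ⟨z, zD⟩) := by
    refine ⟨IsPGroup.of_card cQ, (mQ _).2 X.zQ, z1, by rw [← map_mul]; exact (kφ _).2 (Or.inl X.z2),
      fun x hx => ?_, fun x hx c => ?_, fun x hx => ?_, fun x hx y hy => ?_, ?_⟩
    · obtain ⟨d, rfl⟩ := sφ x
      rw [← map_mul, ← map_mul]
      exact congrArg φ (Subtype.ext (X.zc _ ((mQ d).1 hx)))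
    · obtain ⟨d, rfl⟩ := sφ x
      have hd := (mQ d).1 hx
      have := X.dbl2 tP t2 hd fun y hy e => by
        have := c (φ ⟨y, mD hy e⟩) ((mQ _).2 hy)
        rw [← map_mul, ← map_mul, eφ] at this
        rcases this with h | h
        · exact h
        · by_contra n
          have h1 := X.conj hy hd n
          have h2 : y * d.1 = d.1 * y * t := h
          rw [mul_inv_eq_iff_eq_mul, h2, mul_assoc, mul_assoc, ← X.zc y hy] at h1
          exact n2 (mul_left_cancel (mul_left_cancel h1))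
      rcases this with h | h | h | h
      · exact Or.inl ((kφ d).2 (Or.inl h))
      · exact Or.inr (congrArg φ (Subtype.ext h))
      · exact Or.inl ((kφ d).2 (Or.inr h))
      · exact Or.inr ((eφ _ _).2 (Or.inr h)).symm
    · obtain ⟨d, rfl⟩ := sφ x
      rw [← map_mul]
      exact (X.sq _ ((mQ d).1 hx)).imp (fun h => (kφ _).2 (Or.inl h)) fun h => congrArg φ (Subtype.ext h)
    · obtain ⟨d, rfl⟩ := sφ x
      obtain ⟨d', rfl⟩ := sφ y
      rw [← map_mul, ← map_inv, ← map_mul, ← map_mul]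
      exact (X.com _ ((mQ d).1 hx) _ ((mQ d').1 hy)).imp (fun h => congrArg φ (Subtype.ext h))
        fun h => congrArg φ (Subtype.ext h)
    · obtain ⟨x, hx, y, hy, c, d, e⟩ := X.cent_nab (by rw [M.card]; norm_num) tP
      refine ⟨φ ⟨x, mD hx c⟩, (mQ _).2 hx, φ ⟨y, mD hy d⟩, (mQ _).2 hy, fun h => z1 ?_⟩
      rw [show (⟨z, zD⟩ : ↥(centralizer ({z} : Set G) ⊓ centralizer ({t} : Set G))) =
        ⟨x, mD hx c⟩ * ⟨y, mD hy d⟩ * (⟨x, mD hx c⟩)⁻¹ * (⟨y, mD hy d⟩)⁻¹ from Subtype.ext e.symm,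
        map_mul, map_mul, map_mul, map_inv, map_inv, h]
      group
  have cen : ∀ q : θ'.ker, q ∈ center θ'.ker ↔ q.1 = 1 ∨ q.1 = φ ⟨z, zD⟩ := fun q => by
    refine ⟨fun h => Y.cen _ q.2 fun y hy => (congrArg Subtype.val (mem_center_iff.1 h ⟨y, hy⟩)).symm,
      fun h => mem_center_iff.2 fun y => Subtype.ext ?_⟩
    show y.1 * q.1 = q.1 * y.1
    rcases h with h | h <;> rw [h]
    · simp
    · exact Y.zc _ y.2
  have cm : ∀ {v x}, R v x → (x * t = t * x ↔ v ∈ leechPerpU) := fun b => M.comm b a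
  choose f hf using M.ex1
  let F : leechPerpU → ↥(centralizer ({z} : Set G) ⊓ centralizer ({t} : Set G)) := fun x =>
    ⟨f x, mD (M.mem (hf x)) ((cm (hf x)).2 x.2)⟩
  obtain ⟨ψ, hψ⟩ : ∃ ψ : leechPerpU → θ'.ker ⧸ center θ'.ker,
      ∀ x, ψ x = QuotientGroup.mk ⟨φ (F x), (mQ _).2 (M.mem (hf x))⟩ := ⟨_, fun _ => rfl⟩
  have key : ∀ (x : leechPerpU) d (hd : φ d ∈ θ'.ker), ψ x = QuotientGroup.mk ⟨φ d, hd⟩ ↔
      R x d.1 ∨ R (x + u) d.1 := fun x d hd => by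
    rw [hψ, QuotientGroup.eq, cen, M.fib (hf x), M.fib (M.add (hf x) a)]
    show (φ (F x))⁻¹ * φ d = 1 ∨ (φ (F x))⁻¹ * φ d = _ ↔ _
    rw [inv_mul_eq_one, inv_mul_eq_iff_eq_mul, ← map_mul, eq_comm (a := φ d), eφ, eφ]
    show (d.1 = f x ∨ d.1 = f x * t) ∨ (d.1 = f x * z ∨ d.1 = f x * z * t) ↔ _
    rw [mul_assoc (f x) t z, X.zc t tP, mul_assoc (f x) z t]
    tauto
  refine ⟨zb, θ'.ker, inferInstance, ⟨?_, ?_, Y.isExtra, cQ, ?_⟩,
    QuotientGroup.quotientKerEquivOfSurjective θ' sθ', ψ, fun x y => ?_, fun q => ?_, fun x => ?_, ?_⟩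
  · rw [← hz ⟨z, zD⟩ rfl, orderOf_coe]; exact Y.ord
  · haveI := sK2
    haveI := isoCo2.symm.isSimpleGroup
    haveI := Finite.of_equiv _ isoCo2.toEquiv
    refine gfit_eq (by rw [← Nat.card_congr isoCo2.toEquiv, cK2]; norm_num) θ' sθ' Y.p fun e => ?_
    obtain ⟨k, hk, x, h1, h2, h3⟩ := exists_move
    obtain ⟨c, hc, e⟩ := e.ge (mem_top (isoCo2 ⟨k, hk⟩))
    obtain ⟨d, rfl⟩ := sφ c
    rw [hθ', isoCo2.apply_eq_iff_eq] at e
    have b := M.act (hθ d) (hf x)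
    rw [e] at b
    have := hc (φ (F ⟨x, h1⟩)) ((mQ _).2 (M.mem (hf x)))
    rw [eq_comm, ← mul_inv_eq_iff_eq_mul, ← map_mul, ← map_inv, ← map_mul, eq_comm, eφ] at this
    rcases this with h | h
    · obtain ⟨s, hs⟩ := (M.fib2 (hf x)).1 ((show d.1 * f x * d.1⁻¹ = f x from h) ▸ b)
      exact h2 s hs
    · obtain ⟨s, hs⟩ := (M.fib2 (M.add (hf x) a)).1 ((show d.1 * f x * d.1⁻¹ = f x * t from h) ▸ b)
      exact h3 s hs
  · obtain ⟨g, d, h1, h2, h3⟩ := w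
    exact ⟨g, ⟨h2 ▸ (φ d).2, (Subtype.ext h2 : φ d = ⟨_, h2 ▸ (φ d).2⟩) ▸ (mQ d).2 h1⟩, h3⟩
  · rw [hψ x, hψ y, ← QuotientGroup.mk_mul]
    exact ((key (x + y) (F x * F y) ((mQ _).2 (P.mul_mem (M.mem (hf x)) (M.mem (hf y))))).2
      (Or.inl (M.add (hf x) (hf y)))).trans (congrArg _ (Subtype.ext (map_mul φ _ _)))
  · obtain ⟨⟨c, hc⟩, rfl⟩ := QuotientGroup.mk_surjective q
    obtain ⟨d, rfl⟩ := sφ c
    obtain ⟨v, b⟩ := M.ex2 _ ((mQ d).1 hc)
    exact ⟨⟨v, (cm b).1 (mem_centralizer_singleton_iff.1 d.2.2)⟩, (key _ d hc).2 (Or.inl b)⟩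
  · rw [show (1 : θ'.ker ⧸ center θ'.ker) = QuotientGroup.mk ⟨φ 1, (mQ _).2 P.one_mem⟩ from
      congrArg _ (Subtype.ext (map_one φ).symm), key]
    refine or_congr ((M.fib2 M.zero.1).trans (by simp)) ((M.fib2 M.zero.1).trans ⟨fun ⟨s, e⟩ => ⟨s - u, ?_⟩,
      fun ⟨s, e⟩ => ⟨s + u, by rw [e]; show u + _ + _ = _; abel⟩⟩)
    rw [eq_sub_of_add_eq e]; show _ = u + _; abel
  · rintro h g e x y hxy ⟨c, hc⟩ b
    obtain ⟨d, rfl⟩ := sφ h
    obtain ⟨d', rfl⟩ := sφ c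
    have e' : isoCo2 (θ d) = g := (hθ' d).symm.trans e
    subst e'
    have hxy' : (θ d).1 • (x : Λ) = y := hxy
    have m : φ (d * d' * d⁻¹) ∈ θ'.ker := by
      rw [map_mul, map_mul, map_inv]; exact θ'.normal_ker.conj_mem _ hc _
    refine ((key y (d * d' * d⁻¹) m).2 (((key x d' hc).1 b).imp (fun b => hxy' ▸ M.act (hθ d) b) fun b => ?_)).trans
      (congrArg _ (Subtype.ext (by simp)))
    have := M.act (hθ d) b
    rwa [smul_add', hxy', show (θ d).1 • u = u from (θ d).2] at this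

theorem baby {t : G} (a : R u t) (h3 : ¬ IsConj z t)
    [hn : ((zpowers t).subgroupOf (centralizer ({t} : Set G))).Normal] :
    IsOfBabyMonsterType (centralizer ({t} : Set G) ⧸ (zpowers t).subgroupOf (centralizer ({t} : Set G))) := by
  obtain ⟨n1, n2⟩ := M.ne_of a (by rw [n_u]; norm_num) (by rw [n_u]; norm_num)
  have X := M.lx.toXS
  have tP := M.mem a
  have t2 : t * t = 1 := (M.sq a).2 (by rw [n_u])
  have zt : z ∈ centralizer ({t} : Set G) := mem_centralizer_singleton_iff.2 (X.zc t tP).symm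
  obtain ⟨μ, sμ, kμ⟩ : ∃ μ : centralizer ({t} : Set G) →* centralizer ({t} : Set G) ⧸
      (zpowers t).subgroupOf (centralizer ({t} : Set G)), Function.Surjective μ ∧ ∀ h, μ h = 1 ↔ h.1 = 1 ∨ h.1 = t :=
    ⟨QuotientGroup.mk' _, QuotientGroup.mk'_surjective _, fun h => (QuotientGroup.eq_one_iff h).trans (mem_zp2 t2)⟩
  have eμ : ∀ d d', μ d = μ d' ↔ d'.1 = d.1 ∨ d'.1 = d.1 * t := fun d d' => by
    rw [← inv_mul_eq_one, ← map_inv, ← map_mul, kμ]
    exact or_congr (inv_mul_eq_one.trans eq_comm) inv_mul_eq_iff_eq_mul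
  have nc : ∀ h : G, h * z * h⁻¹ ≠ z * t := fun h e => by
    obtain ⟨y, -, -, c⟩ := X.exists_conj tP n1 n2
    exact h3 ((_root_.isConj_iff.2 ⟨h, e⟩).trans (_root_.isConj_iff.2 ⟨y, c.trans (X.zc t tP)⟩).symm)
  refine M.baby_abs a (zb := μ ⟨z, zt⟩) ((μ.comp (inclusion inf_le_right)).codRestrict _ fun d =>
    mem_centralizer_singleton_iff.2 ?_) (fun c => ?_) (fun d => Subtype.ext_iff.trans (kμ _))
    (fun d e => congrArg μ (Subtype.ext e)) ?_
  · rw [MonoidHom.comp_apply, ← map_mul, ← map_mul]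
    exact congrArg μ (Subtype.ext (mem_centralizer_singleton_iff.1 d.2.1))
  · obtain ⟨h, e⟩ := sμ c.1
    have := conj_eq_iff_comm.2 (mem_centralizer_singleton_iff.1 c.2)
    rw [← e, ← map_inv, ← map_mul, ← map_mul, eq_comm, eμ] at this
    exact ⟨⟨h.1, mem_centralizer_singleton_iff.2 (conj_eq_iff_comm.1 (this.resolve_right (nc h.1))), h.2⟩,
      Subtype.ext e⟩
  · haveI := Fact.mk Nat.prime_two
    obtain ⟨h, c1, c2, c3, c4⟩ := M.weak tP (orderOf_eq_prime ((pow_two t).trans t2) n1) h3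
    refine ⟨μ ⟨h, mem_centralizer_singleton_iff.2 c1⟩, ⟨h * z * h⁻¹, M.lx.le_cent c2,
      mem_centralizer_singleton_iff.2 c3⟩, c2, ?_, ?_⟩
    · rw [← map_inv, ← map_mul, ← map_mul]; rfl
    · rw [← map_inv, ← map_mul, ← map_mul, ne_comm, Ne, eμ]
      exact fun e => e.elim c4 (nc h)

end Mon
end H2
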