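import Cfsg.Agent.H9.Qd
import Cfsg.Agent.H5.SL2Cl

/-! Coordinates for a natural `SL₂(F)`-module. -/

set_option autoImplicit false
set_option linter.unusedSectionVars false

namespace H2N

open Cfsg Subgroup Matrix H9 H5
open scoped commutatorElement MatrixGroups OnePoint

variable {G : Type*} [Group G] {F : Type*} [Field F]

structure ND (F : Type*) [Field F] (V L T : Subgroup G) where
  ρ : L →* SL(2, F)
  φ : (Fin 2 → F) → G
  bij : Function.Bijective ρ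
  inj : Function.Injective φ
  add : ∀ x y, φ (x + y) = φ x * φ y
  memV : ∀ v, v ∈ V ↔ ∃ x, φ x = v
  conj : ∀ (l : L) x, l * φ x * (l : G)⁻¹ = φ ((ρ l).1 *ᵥ x)
  memT : ∀ t, t ∈ T ↔ ∃ l : L, (l : G) = t ∧ ∃ b, ρ l = upm b

theorem charP_of_card {p n : ℕ} [hp : Fact p.Prime] [Fintype F] (h : Fintype.card F = p ^ n) : CharP F p := by
  obtain ⟨q, hq⟩ := CharP.exists F
  obtain ⟨m, h1, h2⟩ := FiniteField.card F q
  have : q ∣ p ^ n := by rw [← h, h2]; exact dvd_pow_self q m.ne_zero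
  rwa [← (Nat.prime_dvd_prime_iff_eq h1 hp.out).1 (h1.dvd_of_dvd_pow this)]

theorem mv_mul (A B : SL(2, F)) (x : Fin 2 → F) : A.1 *ᵥ (B.1 *ᵥ x) = (A * B).1 *ᵥ x := by
  rw [mulVec_mulVec]; rfl

theorem mv_one (x : Fin 2 → F) : (1 : SL(2, F)).1 *ᵥ x = x := one_mulVec x

theorem exists_nd [Finite G] {p : ℕ} [Fact p.Prime] [Fintype F] [CharP F p] {V L : Subgroup G}
    (hnat : IsNaturalSL2Module F V L) (hf : L ⊓ centralizer (V : Set G) = ⊥) (S : Sylow p L) :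
    Nonempty (ND F V L ((S : Subgroup L).map L.subtype)) := by
  obtain ⟨-, ρ, ψ, h1, h2, h3⟩ := hnat
  have hinj : Function.Injective ρ := by
    rw [← MonoidHom.ker_eq_bot_iff, h2, subgroupOf_eq_bot, disjoint_iff, inf_comm, hf]
  obtain ⟨P⟩ : Nonempty (Sylow p SL(2, F)) := inferInstance
  obtain ⟨x, hx⟩ := sylow_eq_US p P
  have h4 : Syl p (US (∞ : OnePoint F)) ⊤ := syl_of_card_le (isPGroup_US p ∞) le_top (syl_top_of_sylow P)
    (by rw [hx, card_US, card_US])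
  have h5 := (syl_top_of_sylow S).map ρ
  rw [← MonoidHom.range_eq_map, MonoidHom.range_eq_top.2 h1] at h5
  obtain ⟨g, -, hg⟩ := h5.conj h4
  refine ⟨⟨(MulAut.conj g).toMonoidHom.comp ρ, fun x => ((ψ.symm ((g⁻¹).1 *ᵥ x)).toMul : V),
    (MulAut.conj g).bijective.comp ⟨hinj, h1⟩, fun x y h => ?_, fun x y => ?_, fun v => ?_, fun l x => ?_,
    fun t => ?_⟩⟩
  · have h' : (g⁻¹).1 *ᵥ x = (g⁻¹).1 *ᵥ y := ψ.symm.injective (Additive.toMul.injective (Subtype.ext h))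
    have := congrArg (g.1 *ᵥ ·) h'
    simpa only [mv_mul, mul_inv_cancel, mv_one] using this
  · rw [mulVec_add, map_add]; rfl
  · refine ⟨fun hv => ⟨g.1 *ᵥ ψ (Additive.ofMul ⟨v, hv⟩), ?_⟩, ?_⟩
    · simp only [mv_mul, inv_mul_cancel, mv_one, AddEquiv.symm_apply_apply, toMul_ofMul]
    · rintro ⟨x, rfl⟩; exact Subtype.property _
  · obtain ⟨w, e1, e2⟩ := h3 l (ψ.symm ((g⁻¹).1 *ᵥ x)).toMul
    rw [← e1]
    rw [ofMul_toMul, AddEquiv.apply_symm_apply] at e2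
    have : (g⁻¹).1 *ᵥ ((((MulAut.conj g).toMonoidHom.comp ρ) l).1 *ᵥ x) = ψ (Additive.ofMul w) := by
      rw [e2, mv_mul, mv_mul]
      congr 2
      show g⁻¹ * (g * ρ l * g⁻¹) = _
      group
    show (w : G) = ((ψ.symm _).toMul : V)
    rw [this, AddEquiv.symm_apply_apply, toMul_ofMul]
  · constructor
    · rintro ⟨l, hl, rfl⟩
      refine ⟨l, rfl, ?_⟩
      have : g * ρ l * g⁻¹ ∈ US (∞ : OnePoint F) := hg ▸ conj_mem_cj_iff.2 (mem_map_of_mem ρ hl)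
      show ∃ b, g * ρ l * g⁻¹ = upm b
      obtain ⟨a, b, c, d, h, e⟩ := exists_sl2 (g * ρ l * g⁻¹)
      rw [e] at this ⊢
      obtain ⟨rfl, rfl, rfl⟩ := sl2_mem_US.1 this
      exact ⟨b, rfl⟩
    · rintro ⟨l, rfl, b, hb⟩
      have : g * ρ l * g⁻¹ ∈ US (∞ : OnePoint F) := by
        rw [show g * ρ l * g⁻¹ = upm b from hb]; exact sl2_mem_US.2 ⟨rfl, rfl, rfl⟩
      rw [← hg, conj_mem_cj_iff] at this
      obtain ⟨y, hy, e⟩ := this
      exact ⟨y, hy, by rw [hinj e]; rfl⟩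

theorem sl2_mulVec (a b c d : F) (h) (x : Fin 2 → F) :
    (sl2 a b c d h).1 *ᵥ x = ![a * x 0 + b * x 1, c * x 0 + d * x 1] := by
  ext i
  fin_cases i <;> simp [sl2, mulVec, dotProduct, Fin.sum_univ_two]

namespace ND

variable {V L T : Subgroup G} (D : ND F V L T)

theorem zero : D.φ 0 = 1 := by simpa using D.add 0 0

theorem neg (x) : D.φ (-x) = (D.φ x)⁻¹ := by
  rw [eq_inv_iff_mul_eq_one, ← D.add, neg_add_cancel, D.zero]

theorem mem (x) : D.φ x ∈ V := (D.memV _).2 ⟨x, rfl⟩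

theorem comm_iff (l : L) (x) : (l : G) * D.φ x = D.φ x * l ↔ (D.ρ l).1 *ᵥ x = x := by
  rw [← D.inj.eq_iff, ← D.conj, mul_inv_eq_iff_eq_mul]

theorem exists_l (A : SL(2, F)) : ∃ l, D.ρ l = A := D.bij.2 A

theorem up_iff {b : F} (hb : b ≠ 0) (x : Fin 2 → F) : (upm b).1 *ᵥ x = x ↔ x 1 = 0 := by
  rw [sl2_mulVec]
  constructor
  · intro h
    have := congrFun h 0
    simpa [hb] using this
  · intro h
    ext i
    fin_cases i <;> simp [h]

theorem memC (x) : D.φ x ∈ centralizer (T : Set G) ↔ x 1 = 0 := by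
  constructor
  · intro h
    obtain ⟨l, hl⟩ := D.exists_l (upm 1)
    have := (D.comm_iff l x).1 (h l ((D.memT _).2 ⟨l, rfl, 1, hl⟩))
    rwa [hl, up_iff one_ne_zero] at this
  · intro h t ht
    obtain ⟨l, rfl, b, hb⟩ := (D.memT _).1 ht
    rw [D.comm_iff, hb, sl2_mulVec]
    ext i
    fin_cases i <;> simp [h]

theorem memC' {v : G} : v ∈ V ⊓ centralizer (T : Set G) ↔ ∃ a, D.φ ![a, 0] = v := by
  constructor
  · rintro ⟨h1, h2⟩
    obtain ⟨x, rfl⟩ := (D.memV _).1 h1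
    refine ⟨x 0, congrArg _ ?_⟩
    have := (D.memC x).1 h2
    ext i
    fin_cases i <;> simp [this]
  · rintro ⟨a, rfl⟩
    exact ⟨D.mem _, (D.memC _).2 rfl⟩

theorem comm_up {l : L} {b : F} (h : D.ρ l = upm b) (x) :
    D.φ x * l * (D.φ x)⁻¹ * (l : G)⁻¹ = D.φ ![-(b * x 1), 0] := by
  rw [mul_assoc, mul_assoc, ← mul_assoc (l : G), ← D.neg, D.conj, ← D.add, h, sl2_mulVec]
  congr 1
  ext i
  fin_cases i <;> simp

theorem mem_norm [Finite G] {l : L} (h : (D.ρ l).1 1 0 = 0) : (l : G) ∈ normalizer (T : Set G) := by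
  refine mem_normalizer_of_cj_le ?_
  rintro _ ⟨t, ht, rfl⟩
  obtain ⟨m, rfl, b, hb⟩ := (D.memT _).1 ht
  refine (D.memT _).2 ⟨l * m * l⁻¹, rfl, ?_⟩
  rw [map_mul, map_mul, map_inv, hb]
  obtain ⟨a, b', c, d, h', e⟩ := exists_sl2 (D.ρ l)
  rw [e] at h ⊢
  obtain rfl : c = 0 := h
  refine ⟨a * a * b, ?_⟩
  rw [sl2_inv, sl2_mul, sl2_mul, sl2_eq_iff]
  refine ⟨by linear_combination h', by ring, by ring, by linear_combination h'⟩

theorem exists_diag [Finite G] {a : F} (ha : a ≠ 0) : ∃ l ∈ L ⊓ normalizer (T : Set G), ∀ x,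
    l * D.φ x * l⁻¹ = D.φ ![a * x 0, a⁻¹ * x 1] := by
  obtain ⟨l, hl⟩ := D.exists_l (sl2 a 0 0 a⁻¹ (by simp [ha]))
  refine ⟨l, mem_inf.2 ⟨l.2, D.mem_norm (by rw [hl]; rfl)⟩, fun x => ?_⟩
  rw [D.conj, hl, sl2_mulVec]
  simp

end ND

end H2N
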