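import Cfsg.Agent.H2.XS2
import Cfsg.Agent.H1.Heis
import Cfsg.Agent.H1.Cores

/-! H2.Parab: the group `2^{1+2n} : GL_n(2)` as an involution centralizer. -/

set_option autoImplicit false

namespace H2.Parab
open Subgroup Matrix

theorem one2 : ∀ c : ZMod 2, c ≠ 0 → c = 1 := by decide
theorem two2 : ∀ t : ZMod 2, t + t = 0 := by decide

theorem gl_core {n : ℕ} (N : Subgroup (GL (Fin n) (ZMod 2))) [hN : N.Normal] (h : IsPGroup 2 N) : N = ⊥ := by
  haveI := Fact.mk Nat.prime_two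
  rcases Nat.eq_zero_or_pos n with rfl | hn
  · exact eq_bot_iff.2 fun g _ => Units.ext (Subsingleton.elim _ _)
  obtain ⟨v, hv, v0⟩ := h.exists_fixed_point_of_prime_dvd_card_of_fixed_point (Fin n → ZMod 2)
    (by simp only [Nat.card_fun, Nat.card_zmod, Nat.card_fin]; exact dvd_pow_self 2 hn.ne')
    (a := 0) (fun g => smul_zero g)
  have one := one2
  have key : ∀ w : Fin n → ZMod 2, (∀ g ∈ N, g.1 *ᵥ w = w) → ∀ j, w j = 1 → ∀ i, i ≠ j →
      ∀ g ∈ N, g.1 *ᵥ Pi.single i 1 = Pi.single i 1 := by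
    intro w hw j hj i hij g hg
    let t : GL (Fin n) (ZMod 2) := GeneralLinearGroup.mkOfDetNeZero (transvection i j 1)
      (by rw [det_transvection_of_ne _ _ hij]; exact one_ne_zero)
    have tw : t.1 *ᵥ w = w + Pi.single i 1 := by
      show transvection i j 1 *ᵥ w = _
      rw [transvection, add_mulVec, one_mulVec, single_mulVec, hj, mul_one]; rfl
    have := congrArg (t.1 *ᵥ ·) (hw _ (hN.conj_mem g hg t⁻¹))
    simp only [mulVec_mulVec, ← Units.val_mul, inv_inv, ← mul_assoc, mul_inv_cancel, one_mul] at this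
    rw [Units.val_mul, ← mulVec_mulVec, tw, mulVec_add, hw g hg] at this
    exact add_left_cancel this
  have hv' : ∀ g ∈ N, g.1 *ᵥ v = v := fun g hg => hv ⟨g, hg⟩
  obtain ⟨j, hj⟩ := Function.ne_iff.1 v0.symm
  have hj := one _ hj
  refine eq_bot_iff.2 fun g hg => Units.ext (Matrix.ext_of_mulVec_single fun i => ?_)
  rw [Units.val_one, one_mulVec]
  by_cases e : i = j
  · subst e
    by_cases k : ∃ l, l ≠ i
    · obtain ⟨l, hl⟩ := k
      exact key _ (key v hv' i hj l hl) l (by simp) i hl.symm g hg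
    · push Not at k
      have : v = Pi.single i 1 := funext fun l => by rw [k l, hj]; simp
      rw [← this, hv' g hg]
  · exact key v hv' j hj i e g hg

theorem parab {G : Type*} [Group G] [Finite G] {n : ℕ} (hn : 1 ≤ n)
    (hz : (Fin n → ZMod 2) → (Fin n → ZMod 2) → ZMod 2 → GL (Fin n) (ZMod 2) → G)
    (h1 : ∀ a b c M a' b' c' M', hz a b c M * hz a' b' c' M' =
      hz (a' + a ᵥ* M'.1) (b + M.1 *ᵥ b') (c + c' + a ⬝ᵥ b') (M * M'))
    (h2 : ∀ a b c M a' b' c' M', hz a b c M = hz a' b' c' M' → a = a' ∧ b = b' ∧ c = c' ∧ M = M')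
    {z : G} (hzz : z = hz 0 0 1 1) (hC : ∀ g, g * z = z * g → ∃ a b c M, g = hz a b c M)
    {C Q : Subgroup G} (eC : C = centralizer {z}) (hQ : Q = (Cfsg.pCore 2 C).map C.subtype) :
    LX Q z ∧ Nat.card Q = 2 ^ (2 * n + 1) ∧
      (∃ E : Subgroup G, E ≤ Q ∧ Cfsg.IsElementaryAbelian 2 E ∧ Nat.card E = 2 ^ (n + 1)) ∧
      (∀ a b c, hz a b c 1 ∈ Q) ∧
      ∃ K : Subgroup G, K ≤ C ∧ Q ⊓ K = ⊥ ∧ Q ⊔ K = C ∧ Nonempty (K ≃* GL (Fin n) (ZMod 2)) := by
  haveI := Fact.mk Nat.prime_two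
  subst eC
  have mC : ∀ a b c M, hz a b c M ∈ centralizer ({z} : Set G) := fun a b c M => by
    rw [mem_centralizer_singleton_iff, hzz, h1, h1]; simp [add_comm]
  choose fa fb fc fM hf using fun g : centralizer ({z} : Set G) => hC g (mem_centralizer_singleton_iff.1 g.2)
  have sp : ∀ a b c M h, fM ⟨hz a b c M, h⟩ = M := fun a b c M h => (h2 _ _ _ _ _ _ _ _ (hf ⟨_, h⟩)).2.2.2.symm
  let π : centralizer ({z} : Set G) →* GL (Fin n) (ZMod 2) := MonoidHom.mk' fM fun x y => by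
    have := hf (x * y)
    rw [coe_mul, hf x, hf y, h1] at this
    exact (h2 _ _ _ _ _ _ _ _ this).2.2.2.symm
  have πs : Function.Surjective π := fun M => ⟨⟨_, mC 0 0 0 M⟩, sp _ _ _ _ _⟩
  have mk : ∀ g, g ∈ π.ker.map (centralizer ({z} : Set G)).subtype ↔ ∃ a b c, g = hz a b c 1 := fun g =>
    ⟨by rintro ⟨x, hx, rfl⟩; exact ⟨_, _, _, (hf x).trans (by rw [show fM x = 1 from hx])⟩,
      by rintro ⟨a, b, c, rfl⟩; exact ⟨⟨_, mC a b c 1⟩, sp _ _ _ _ _, rfl⟩⟩
  have X := (H1.heis (fun a b c => hz a b c 1) (fun a b c a' b' c' => by rw [h1]; simp [add_comm])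
    (fun a b c a' b' c' e => by have := h2 _ _ _ _ _ _ _ _ e; tauto) mk).1
  rw [← hzz] at X
  have e : Cfsg.pCore 2 (centralizer ({z} : Set G)) = π.ker := by
    refine le_antisymm ?_ (H1.le_pCore (IsPGroup.of_card (n := 2 * n + 1) ?_))
    · haveI := (inferInstance : (Cfsg.pCore 2 (centralizer ({z} : Set G))).Normal).map π πs
      exact (Subgroup.map_eq_bot_iff _).1 (gl_core _ (H1.pCore_isPGroup.map π))
    · rw [← X.cd, card_map_of_injective (subtype_injective _)]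
  have hQ' := hQ
  rw [e] at hQ'
  rw [← hQ'] at X mk
  obtain ⟨m, rfl⟩ := Nat.exists_eq_add_of_le' hn
  have h0 : hz 0 0 0 1 = 1 := mul_left_cancel (a := hz 0 0 0 1) (by rw [h1]; simp)
  refine ⟨lx_of_Op X.ord (hQ.trans (H9.Op_eq _ _)) (X.toWS.extra X.nd X.ne_zp) fun g hg => ?_, X.cd, ?_,
    fun a b c => (mk _).2 ⟨a, b, c, rfl⟩, ?_⟩
  · obtain ⟨a, b, c, M, rfl⟩ := hC g (hg z X.mem).symm
    have : M = 1 := Units.ext (Matrix.ext_of_mulVec_single fun i => by
      have := hg _ ((mk _).2 ⟨0, Pi.single i 1, 0, rfl⟩)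
      rw [h1, h1] at this
      have := (h2 _ _ _ _ _ _ _ _ this).2.1
      rw [Units.val_one, one_mulVec, add_comm _ b] at this
      rw [Units.val_one, one_mulVec]
      exact (add_left_cancel this).symm)
    exact (mk _).2 ⟨a, b, c, this ▸ rfl⟩
  · let h : Multiplicative ((Fin (m + 1) → ZMod 2) × ZMod 2) →* G := MonoidHom.mk'
      (fun a => hz 0 a.toAdd.1 a.toAdd.2 1) fun a b => by rw [h1]; simp
    have hi : Function.Injective h := fun a b e =>
      Multiplicative.toAdd.injective (Prod.ext (h2 _ _ _ _ _ _ _ _ e).2.1 (h2 _ _ _ _ _ _ _ _ e).2.2.1)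
    refine ⟨h.range, ?_, ⟨inferInstance, ?_⟩, ?_⟩
    · rintro _ ⟨a, rfl⟩
      exact (mk _).2 ⟨_, _, _, rfl⟩
    · rintro _ ⟨a, rfl⟩
      have two := two2
      rw [← map_pow, pow_two, show a * a = 1 from Multiplicative.toAdd.injective
        (Prod.ext (funext fun _ => two _) (two _)), map_one]
    · rw [← Nat.card_congr (MonoidHom.ofInjective hi).toEquiv, Nat.card_congr Multiplicative.toAdd]
      simp only [Nat.card_prod, Nat.card_fun, Nat.card_zmod, Nat.card_fin]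
      ring
  · let κ : GL (Fin (m + 1)) (ZMod 2) →* G := MonoidHom.mk' (fun M => hz 0 0 0 M) fun a b => by rw [h1]; simp
    have hi : Function.Injective κ := fun a b e => (h2 _ _ _ _ _ _ _ _ e).2.2.2
    have k1 : κ.range ≤ centralizer {z} := by rintro _ ⟨M, rfl⟩; exact mC _ _ _ _
    refine ⟨κ.range, k1, eq_bot_iff.2 ?_, le_antisymm (sup_le (hQ ▸ map_subtype_le _) k1) fun g hg => ?_,
      ⟨(MonoidHom.ofInjective hi).symm⟩⟩
    · rintro _ ⟨h3, M, rfl⟩
      obtain ⟨a, b, c, e⟩ := (mk _).1 h3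
      rw [(h2 _ _ _ _ _ _ _ _ e).2.2.2]
      exact h0
    · obtain ⟨a, b, c, M, rfl⟩ := hC g (mem_centralizer_singleton_iff.1 hg)
      have : hz a b c M = hz (a ᵥ* (M⁻¹).1) b c 1 * hz 0 0 0 M := by
        rw [h1, vecMul_vecMul, ← Units.val_mul]; simp
      rw [this]
      exact mul_mem (mem_sup_left ((mk _).2 ⟨_, _, _, rfl⟩)) (mem_sup_right ⟨M, rfl⟩)

theorem det_one {ι : Type*} [Fintype ι] [DecidableEq ι] {M : Matrix ι ι (ZMod 2)} (h : IsUnit M) :
    M.det = 1 := by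
  have one := one2
  exact one _ ((isUnit_iff_isUnit_det M).1 h).ne_zero

theorem gl_sl (n : ℕ) : Nonempty (GL (Fin n) (ZMod 2) ≃* SpecialLinearGroup (Fin n) (ZMod 2)) :=
  ⟨(MulEquiv.ofBijective SpecialLinearGroup.toGL ⟨SpecialLinearGroup.toGL_injective,
    fun g => ⟨⟨g.1, det_one g.isUnit⟩, Units.ext rfl⟩⟩).symm⟩

end H2.Parab
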