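import Cfsg.Agent.FT.B4a
import Cfsg.Agent.H9.MS1
import Cfsg.Agent.H2.Fus4

/-! H2.Puig: the Puig subgroup (Bender–Glauberman, Appendix B). -/

set_option linter.unusedSectionVars false

namespace H2P

open Subgroup H9 Cfsg

variable {G : Type*} [Group G] {H K X Y A : Subgroup G}

/-- `L_H(X)` inside `G` -/
def Ls (H X : Subgroup G) : Subgroup G :=
  sSup {A | A ≤ H ∧ IsMulCommutative A ∧ X ≤ normalizer (A : Set G)}

/-- `L_n(H)` inside `G` -/
def Lq (H : Subgroup G) : ℕ → Subgroup G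
  | 0 => ⊥
  | n + 1 => Ls H (Lq H n)

/-- `L(H)` -/
def LU (H : Subgroup G) : Subgroup G := ⨅ n : ℕ, Lq H (2 * n + 1)
/-- `L_*(H)` -/
def LL (H : Subgroup G) : Subgroup G := ⨆ n : ℕ, Lq H (2 * n)

theorem Ls_le (H X : Subgroup G) : Ls H X ≤ H := sSup_le fun _ h => h.1
theorem le_Ls (h1 : A ≤ H) (h2 : IsMulCommutative A) (h3 : X ≤ normalizer (A : Set G)) : A ≤ Ls H X :=
  le_sSup ⟨h1, h2, h3⟩
theorem Ls_le_of (h : ∀ A ≤ H, IsMulCommutative A → X ≤ normalizer (A : Set G) → A ≤ K) :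
    Ls H X ≤ K := sSup_le fun A hA => h A hA.1 hA.2.1 hA.2.2
theorem Ls_mono (h1 : H ≤ K) (h2 : Y ≤ X) : Ls H X ≤ Ls K Y :=
  Ls_le_of fun _ a b c => le_Ls (a.trans h1) b (h2.trans c)
theorem Ls_le_Ls (h1 : Ls K X ≤ H) (h2 : Y ≤ X) : Ls K X ≤ Ls H Y :=
  Ls_le_of fun _ a b c => le_Ls ((le_Ls a b c).trans h1) b (h2.trans c)
theorem Lq_le (H : Subgroup G) : ∀ n, Lq H n ≤ H
  | 0 => bot_le
  | _ + 1 => Ls_le _ _
theorem Lq_one (H : Subgroup G) : Lq H 1 = H :=
  le_antisymm (Lq_le H 1) fun x hx => le_Ls (zpowers_le_of_mem hx) inferInstance bot_le (mem_zpowers x)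
theorem LU_le (H : Subgroup G) : LU H ≤ H := (iInf_le _ 0).trans (Lq_le H _)
theorem LL_le (H : Subgroup G) : LL H ≤ H := iSup_le fun _ => Lq_le H _

theorem Ls_top (X : Subgroup G) : Ls ⊤ X = puigStep X := by simp [Ls, puigStep]
theorem Lq_top : ∀ n, Lq (⊤ : Subgroup G) n = puigSeq G n
  | 0 => rfl
  | n + 1 => by rw [Lq, puigSeq, Lq_top n, Ls_top]
theorem LU_top : LU (⊤ : Subgroup G) = puigSubgroup G := by simp [LU, puigSubgroup, Lq_top]
theorem LL_top : LL (⊤ : Subgroup G) = puigLower G := by simp [LL, puigLower, Lq_top]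

section
variable {G' : Type*} [Group G'] {f : G →* G'}

theorem map_Ls (hf : Function.Injective f) (H X : Subgroup G) :
    (Ls H X).map f = Ls (H.map f) (X.map f) := by
  apply le_antisymm
  · rw [map_le_iff_le_comap]
    refine Ls_le_of fun A a b c => map_le_iff_le_comap.1 (le_Ls (map_mono a) inferInstance ?_)
    exact (map_mono c).trans (le_normalizer_map f)
  · refine Ls_le_of fun A a b c => ?_
    have e : (A.comap f).map f = A := map_comap_eq_self (a.trans (map_le_range f H))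
    rw [← e]
    refine map_mono (le_Ls ?_ (comap_injective_isMulCommutative A hf) ?_)
    · rw [← comap_map_eq_self_of_injective hf H]; exact comap_mono a
    · exact (map_le_iff_le_comap.1 c).trans (le_normalizer_comap f)

theorem map_Lq (hf : Function.Injective f) (H : Subgroup G) : ∀ n, (Lq H n).map f = Lq (H.map f) n
  | 0 => Subgroup.map_bot f
  | n + 1 => by rw [Lq, Lq, map_Ls hf, map_Lq hf H n]

theorem map_LU (hf : Function.Injective f) (H : Subgroup G) : (LU H).map f = LU (H.map f) := by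
  rw [LU, LU, map_iInf f hf]; simp [map_Lq hf]

theorem map_LL (hf : Function.Injective f) (H : Subgroup G) : (LL H).map f = LL (H.map f) := by
  rw [LL, LL, Subgroup.map_iSup]; simp [map_Lq hf]
end

theorem LU_eq (H : Subgroup G) : (puigSubgroup H).map H.subtype = LU H := by
  rw [← LU_top, map_LU H.subtype_injective, ← MonoidHom.range_eq_map, range_subtype]
theorem LL_eq (H : Subgroup G) : (puigLower H).map H.subtype = LL H := by
  rw [← LL_top, map_LL H.subtype_injective, ← MonoidHom.range_eq_map, range_subtype]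

theorem normalizer_Lq (h : X ≤ normalizer (H : Set G)) (n : ℕ) : X ≤ normalizer (Lq H n : Set G) :=
  fun g hg => by
    rw [mem_normalizer_iff_cj, cj, map_Lq (MulAut.conj g).injective, cj_def', mem_normalizer_iff_cj.1 (h hg)]
theorem normalizer_LU (h : X ≤ normalizer (H : Set G)) : X ≤ normalizer (LU H : Set G) :=
  normalizer_iInf fun _ => normalizer_Lq h _
theorem normalizer_LL (h : X ≤ normalizer (H : Set G)) : X ≤ normalizer (LL H : Set G) :=
  normalizer_iSup fun _ => normalizer_Lq h _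

theorem Lq_step (H : Subgroup G) : ∀ n, Lq H (2 * n) ≤ Lq H (2 * n + 2) ∧ Lq H (2 * n + 3) ≤ Lq H (2 * n + 1)
  | 0 => ⟨bot_le, Ls_mono le_rfl bot_le⟩
  | n + 1 => by
    have h := Ls_mono (H := H) le_rfl (Lq_step H n).2
    exact ⟨h, Ls_mono le_rfl h⟩

theorem mono_even (H : Subgroup G) : Monotone fun n => Lq H (2 * n) :=
  monotone_nat_of_le_succ fun n => (Lq_step H n).1
theorem anti_odd (H : Subgroup G) : Antitone fun n => Lq H (2 * n + 1) :=
  antitone_nat_of_succ_le fun n => (Lq_step H n).2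

theorem even_le_odd (H : Subgroup G) (n m : ℕ) : Lq H (2 * n) ≤ Lq H (2 * m + 1) := by
  have h : ∀ n, Lq H (2 * n) ≤ Lq H (2 * n + 1) := fun n => by
    induction n with
    | zero => exact bot_le
    | succ n ih => exact Ls_mono le_rfl (Ls_mono le_rfl ih)
  rcases le_total n m with h1 | h1
  · exact (mono_even H h1).trans (h m)
  · exact (h n).trans (anti_odd H h1)

theorem LL_le_LU (H : Subgroup G) : LL H ≤ LU H := iSup_le fun n => le_iInf fun m => even_le_odd H n m

variable [Finite G]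

theorem stab (H : Subgroup G) : ∃ k, ∀ n, k ≤ n → Lq H (2 * n) = LL H ∧ Lq H (2 * n + 1) = LU H := by
  obtain ⟨k, hk⟩ := WellFoundedGT.monotone_chain_condition ⟨_, mono_even H⟩
  have h1 : ∀ n, k ≤ n → Lq H (2 * n) = Lq H (2 * k) := fun n hn => (hk n hn).symm
  refine ⟨k, fun n hn => ⟨le_antisymm (le_iSup (fun n => Lq H (2 * n)) n) (iSup_le fun m => ?_),
    le_antisymm (le_iInf fun m => ?_) (iInf_le _ n)⟩⟩
  · rcases le_total m n with h | h
    · exact mono_even H h
    · rw [h1 n hn, h1 m (hn.trans h)]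
  · rcases le_total m n with h | h
    · exact anti_odd H h
    · rw [Lq, Lq, h1 n hn, h1 m (hn.trans h)]

theorem Ls_LL (H : Subgroup G) : Ls H (LL H) = LU H := by
  obtain ⟨k, hk⟩ := stab H
  rw [← (hk k le_rfl).1, ← (hk k le_rfl).2, Lq]

theorem Ls_LU (H : Subgroup G) : Ls H (LU H) = LL H := by
  obtain ⟨k, hk⟩ := stab H
  rw [← (hk (k + 1) (by omega)).1, ← (hk k le_rfl).2]; rfl

theorem LU_eq_of_le (h1 : LU K ≤ H) (h2 : H ≤ K) : LU H = LU K := by
  have a : ∀ n, Lq H (2 * n) ≤ LL K := fun n => by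
    induction n with
    | zero => exact bot_le
    | succ n ih =>
      have : LU K ≤ Lq H (2 * n + 1) := by
        rw [← Ls_LL]; exact Ls_le_Ls (by rwa [Ls_LL]) ih
      rw [← Ls_LU]; exact Ls_mono h2 this
  have b : ∀ n, Lq K (2 * n) ≤ LL H := fun n => by
    induction n with
    | zero => exact bot_le
    | succ n ih =>
      have : LU H ≤ Lq K (2 * n + 1) := by
        rw [← Ls_LL]; exact Ls_mono h2 ih
      rw [← Ls_LU]
      exact Ls_le_Ls (((le_iSup (fun n => Lq K (2 * n)) (n + 1)).trans (LL_le_LU K)).trans h1) this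
  have e : LL H = LL K := le_antisymm (iSup_le a) (iSup_le b)
  rw [← Ls_LL, ← Ls_LL K, e]
  exact le_antisymm (Ls_mono h2 le_rfl) (Ls_le_Ls (by rwa [Ls_LL]) le_rfl)

theorem cent_Ls (hH : Group.IsNilpotent H) (h : X ≤ H) :
    H ⊓ centralizer (Ls H X : Set G) ≤ Ls H X := by
  obtain ⟨A, -, h1, h2, h3, h4⟩ := H1.exists_maximal_abelian_normal (A := (⊥ : Subgroup G)) (L := H) bot_le
    le_normalizer_of_normal inferInstance
  have h5 := H1.centralizer_eq_of_maximal_abelian_normal hH h1 h2 h3 h4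
  have h6 : A ≤ Ls H X := le_Ls h1 h3 (h.trans h2)
  exact ((inf_le_inf_left _ (centralizer_anti h6)).trans h5.le).trans h6

theorem cent_LU (hH : Group.IsNilpotent H) : H ⊓ centralizer (LU H : Set G) ≤ LU H := by
  rw [← Ls_LL]; exact cent_Ls hH (LL_le H)
theorem cent_LL (hH : Group.IsNilpotent H) : H ⊓ centralizer (LL H : Set G) ≤ LL H := by
  rw [← Ls_LU]; exact cent_Ls hH (LU_le H)

variable {p : ℕ} [Fact p.Prime]

theorem cent_le_Op (hc : centralizer (Op p (⊤ : Subgroup G) : Set G) ≤ Op p ⊤) {L : Subgroup G}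
    [L.Normal] (h1 : L ≤ Op p ⊤) (h2 : Op p ⊤ ⊓ centralizer (L : Set G) ≤ L) :
    IsPGroup p (centralizer (L : Set G)) := by
  refine H2.isPGroup_of_forall_coprime fun x hx hxc => ?_
  have h3 : (Nat.card (zpowers x)).Coprime p := by rwa [Nat.card_zpowers]
  have := H1.le_centralizer_of_centralizer_le (A := zpowers x) (Op_p p ⊤).isNilpotent
    (le_top.trans (le_normalizer_Op p ⊤)) (card_cop_of_p (Op_p p ⊤) h3).symm h1 (zpowers_le_of_mem hx) h2
  have h4 := eq_bot_of_p_p' ((Op_p p ⊤).to_le (this.trans hc)) h3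
  exact zpowers_eq_bot.1 h4

theorem comm3 {V : Subgroup G} (h1 : V ≤ normalizer (A : Set G)) (h2 : IsMulCommutative A) :
    ⁅⁅V, A⁆, A⁆ = ⊥ :=
  commutator_eq_bot_iff_le_centralizer.2 ((commutator_le_right' h1).trans
    (le_centralizer_iff_isMulCommutative.2 h2))

theorem b3 (hs : PStN p G) (hc : centralizer (Op p (⊤ : Subgroup G) : Set G) ≤ Op p ⊤)
    {S : Subgroup G} (hS : Syl p S ⊤) : LL S ≤ LL (Op p ⊤) ∧ LU (Op p ⊤) ≤ LU S := by
  have a : ∀ n, Lq S (2 * n) ≤ Lq (Op p ⊤) (2 * n) := fun n => by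
    induction n with
    | zero => exact bot_le
    | succ n ih =>
      have h1 : Lq (Op p ⊤) (2 * n + 1) ≤ Lq S (2 * n + 1) := Ls_mono hS.Op_le ih
      haveI : (Lq (Op p (⊤ : Subgroup G)) (2 * n + 1)).Normal :=
        normalizer_eq_top_iff.1 (eq_top_iff.2 (normalizer_Lq (le_normalizer_Op p ⊤) _))
      have h2 := cent_le_Op hc (Lq_le _ (2 * n + 1)) (cent_Ls (Op_p p ⊤).isNilpotent (Lq_le _ _))
      refine Ls_le_of fun A _ b c => le_Ls ?_ b (h1.trans c)
      exact ((hs _ inferInstance ((Op_p p ⊤).to_le (Lq_le _ _))).le le_top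
        (comm3 (h1.trans c) b)).trans (Opm_le_Op h2.to_inf_left)
  exact ⟨iSup_mono a, iInf_mono fun n => Ls_mono hS.Op_le (a n)⟩

theorem b4 (hs : PStN p G) (hc : centralizer (Op p (⊤ : Subgroup G) : Set G) ≤ Op p ⊤)
    {S : Subgroup G} (hS : Syl p S ⊤) : (LU S ⊓ centralizer (LU S : Set G)).Normal := by
  obtain ⟨-, h1⟩ := b3 hs hc hS
  haveI hn : (LU (Op p (⊤ : Subgroup G))).Normal :=
    normalizer_eq_top_iff.1 (eq_top_iff.2 (normalizer_LU (le_normalizer_Op p ⊤)))
  have h2 := cent_le_Op hc (LU_le _) (cent_LU (Op_p p ⊤).isNilpotent)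
  obtain ⟨Y, hY⟩ : ∃ Y, Y = LU (Op p (⊤ : Subgroup G)) ⊓ centralizer (LU (Op p (⊤ : Subgroup G)) : Set G) :=
    ⟨_, rfl⟩
  haveI : Y.Normal := hY ▸ inferInstance
  have hYc : IsMulCommutative Y := le_centralizer_iff_isMulCommutative.1
    (hY ▸ inf_le_right.trans (centralizer_anti inf_le_left))
  have hYT : Y ≤ Op p ⊤ := hY ▸ inf_le_left.trans (LU_le _)
  have h3 : LU S ⊓ centralizer (LU S : Set G) ≤ Y := by
    have h4 := inf_le_right.trans (centralizer_anti h1) (a := LU S ⊓ centralizer (LU S : Set G))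
    rw [hY]
    exact le_inf ((le_inf (h4.trans (le_Op le_top le_normalizer_of_normal h2)) h4).trans
      (cent_LU (Op_p p ⊤).isNilpotent)) h4
  have h4 : Y ≤ LL S := by
    rw [← Ls_LU]; exact le_Ls (hYT.trans hS.Op_le) hYc le_normalizer_of_normal
  have h5 : LU S ≤ Opm p ⊤ (centralizer (Y : Set G)) := by
    rw [← Ls_LL]
    exact Ls_le_of fun A _ b c =>
      (hs _ inferInstance ((Op_p p ⊤).to_le hYT)).le le_top (comm3 (h4.trans c) b)
  set N := Opm p ⊤ (centralizer (Y : Set G)) with hN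
  have hU := hS.inf_normal (N := N) le_top le_normalizer_of_normal
  have e : LU (S ⊓ N) = LU S := LU_eq_of_le (le_inf (LU_le S) h5) inf_le_left
  have h6 := hU.frattini le_top le_normalizer_of_normal
  rw [← normalizer_eq_top_iff, eq_top_iff, ← h6]
  have h7 : normalizer ((S ⊓ N : Subgroup G) : Set G) ≤
      normalizer ((LU S ⊓ centralizer (LU S : Set G) : Subgroup G) : Set G) := by
    have := normalizer_LU (le_refl (normalizer ((S ⊓ N : Subgroup G) : Set G)))
    rw [e] at this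
    exact normalizer_inf this (normalizer_centralizer this)
  refine sup_le ?_ (inf_le_right.trans h7)
  conv_lhs => rw [← hU.Ores_sup]
  exact sup_le (((Ores_Opm_le _ _).trans (centralizer_anti h3)).trans (centralizer_le_normalizer' _))
    (le_normalizer.trans h7)

end H2P
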