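import Cfsg.Agent.H2.XS2
import Cfsg.Agent.H1.SylowIn
import Cfsg.Agent.S5433

/-! H2.XS3: normal subgroups in the presence of a large extraspecial subgroup. -/

set_option autoImplicit false

namespace H2
open Subgroup H9

variable {G : Type*} [Group G] [Finite G] {Q : Subgroup G} {z : G}

theorem LX.mem_of_even (h : LX Q z) {N : Subgroup G} (hn : Q ≤ normalizer (N : Set G))
    (he : ¬ Odd (Nat.card N)) : z ∈ N := by
  haveI := Fact.mk Nat.prime_two
  obtain ⟨S, hS, h1⟩ := H1.exists_isSylowIn_ge h.p (le_sup_left : Q ≤ Q ⊔ N)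
  have hSN := hS.inf_normal le_sup_right (hS.le.trans (sup_le hn le_normalizer))
  have ne : S ⊓ N ≠ ⊥ := fun e => he (Nat.coprime_two_left.1
    ((Nat.Prime.coprime_iff_not_dvd Nat.prime_two).2 (hSN.eq_bot_iff.1 e)))
  obtain ⟨⟨w, hw⟩, h2⟩ := ne_bot_iff_exists_ne_one.1 (inf_centralizer_ne_bot_of_p hSN.isPGroup h.p
    (normalizer_inf (h1.trans le_normalizer) hn) ne)
  obtain rfl := ((mem_zp2 h.z2).1 (h.centralizer_eq ▸ hw.2)).resolve_left fun e => h2 (Subtype.ext e)
  exact hw.1.2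

theorem LX.mem_normal (h : LX Q z) (hl : Cfsg.IsLargeExtraspecial Q) {N : Subgroup G} [hN : N.Normal]
    (ne : N ≠ ⊥) : z ∈ N :=
  have hn : Q ≤ normalizer (N : Set G) := by rw [normalizer_eq_top_iff.2 hN]; exact le_top
  h.mem_of_even hn fun k => ne (hl.2.2.2 N k hn)

theorem LX.top_of (h : LX Q z) (hl : Cfsg.IsLargeExtraspecial Q) {N : Subgroup G} [N.Normal]
    (hc : centralizer {z} ≤ N) : N = ⊤ := by
  have := Cfsg.Agent.S5433.result Q hl N (h.le_cent.trans hc)
  rwa [h.normalizer_eq, sup_eq_left.2 hc] at this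

end H2
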